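import Mathlib
import Cfsg.Prelude.Def_Characters
import Cfsg.Agent.Lib.H19.ProjExt
import Cfsg.Agent.Lib.H83.Gallagher
import Cfsg.Agent.Lib.H4.CenterIndex
import Cfsg.Agent.Lib.H19.ProjExt2
import Cfsg.Agent.Lib.H20.Defect

/-! Degree ratio over an invariant character of a normal subgroup: a finite lift of the group on
which the character extends (S4439). -/

set_option autoImplicit false
set_option linter.unusedSectionVars false
set_option linter.unusedVariables false
set_option linter.style.haveILetI false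
open Cfsg H18.CharBasic H18.CharOrtho H18.CharInd H18.CharQuot H19.ProjExt
open scoped ComplexConjugate

universe u v

namespace H20.Trip

section lift
variable {G : Type u} [Group G] [Finite G] {V : Type v} [AddCommGroup V] [Module ℂ V]
  [FiniteDimensional ℂ V] {K : Subgroup G} [hK : K.Normal]

/-- the finite lift -/
def E (ρ : Representation ℂ K V) (m : ℕ) : Subgroup (G × (Module.End ℂ V)ˣ) where
  carrier := {x | Intw ρ x.1 (x.2 : Module.End ℂ V) ∧ (LinearMap.det (x.2 : Module.End ℂ V)) ^ m = 1}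
  one_mem' := ⟨intw_one ρ, by simp⟩
  mul_mem' := fun {a b} ha hb => ⟨ha.1.mul hb.1, by
    have h : LinearMap.det (((a * b).2 : (Module.End ℂ V)ˣ) : Module.End ℂ V) =
      LinearMap.det (a.2 : Module.End ℂ V) * LinearMap.det (b.2 : Module.End ℂ V) := by
      rw [← map_mul]; rfl
    rw [h, mul_pow, ha.2, hb.2, one_mul]⟩
  inv_mem' := fun {a} ha => ⟨ha.1.inv, by
    have h : LinearMap.det (((a⁻¹).2 : (Module.End ℂ V)ˣ) : Module.End ℂ V) *
      LinearMap.det (a.2 : Module.End ℂ V) = 1 := by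
      rw [← map_mul]
      have : (((a⁻¹).2 : (Module.End ℂ V)ˣ) : Module.End ℂ V) * (a.2 : Module.End ℂ V) = 1 :=
        Units.inv_mul a.2
      rw [this, map_one]
    have h2 := congrArg (· ^ m) h
    simp only [mul_pow, one_pow] at h2
    rw [ha.2, mul_one] at h2
    exact h2⟩

variable (ρ : Representation ℂ K V) (m : ℕ)

/-- projection -/
def pr : E ρ m →* G := (MonoidHom.fst _ _).comp (E ρ m).subtype

/-- the representation of the lift -/
noncomputable def sg : Representation ℂ (E ρ m) V :=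
  (Units.coeHom _).comp ((MonoidHom.snd _ _).comp (E ρ m).subtype)

theorem sg_apply (x : E ρ m) : sg ρ m x = ((x : G × (Module.End ℂ V)ˣ).2 : Module.End ℂ V) := rfl

theorem pr_apply (x : E ρ m) : pr ρ m x = (x : G × (Module.End ℂ V)ˣ).1 := rfl

theorem ext_of {x y : E ρ m} (h1 : pr ρ m x = pr ρ m y) (h2 : sg ρ m x = sg ρ m y) : x = y :=
  Subtype.ext (Prod.ext h1 (Units.ext h2))

variable {ρ m}

theorem exists_scalar_of_ker (hρ : ρ.IsIrreducible) (x : E ρ m) (hx : pr ρ m x = 1) :
    ∃ c : ℂ, sg ρ m x = c • (1 : Module.End ℂ V) ∧ (c ^ Module.finrank ℂ V) ^ m = 1 := by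
  have h1 := x.2.1
  have h2 : (x : G × (Module.End ℂ V)ˣ).1 = 1 := hx
  rw [h2] at h1
  obtain ⟨c, hc⟩ := exists_scalar_of_intw_one hρ h1
  refine ⟨c, hc, ?_⟩
  have h3 := x.2.2
  rw [hc, LinearMap.det_smul, map_one, mul_one] at h3
  exact h3

theorem ker_pow (hρ : ρ.IsIrreducible) (x : E ρ m) (hx : pr ρ m x = 1) :
    x ^ (Module.finrank ℂ V * m) = 1 := by
  obtain ⟨c, hc, hc1⟩ := exists_scalar_of_ker hρ x hx
  apply ext_of
  · rw [map_pow, hx, one_pow, map_one]
  · rw [map_pow, hc, smul_pow, one_pow, pow_mul, hc1, one_smul, map_one]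

theorem ker_central (hρ : ρ.IsIrreducible) (x : E ρ m) (hx : pr ρ m x = 1) (y : E ρ m) :
    x * y = y * x := by
  obtain ⟨c, hc, -⟩ := exists_scalar_of_ker hρ x hx
  apply ext_of
  · rw [map_mul, map_mul, hx, one_mul, mul_one]
  · rw [map_mul, map_mul, hc, smul_mul_assoc, one_mul, mul_smul_comm, mul_one]

theorem finite_ker (hρ : ρ.IsIrreducible) (hm : m ≠ 0) : Finite (pr ρ m).ker := by
  haveI : Nontrivial V := by
    by_contra h
    rw [not_nontrivial_iff_subsingleton] at h
    haveI := hρ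
    have h2 := hρ.exists_pair_ne
    obtain ⟨a, b, hab⟩ := h2
    apply hab
    apply Subrepresentation.toSubmodule_injective
    exact Subsingleton.elim _ _
  set n := Module.finrank ℂ V * m with hn
  have hn0 : n ≠ 0 := mul_ne_zero Module.finrank_pos.ne' hm
  haveI : NeZero n := ⟨hn0⟩
  have h1 : ∀ x : (pr ρ m).ker, ∃ c : rootsOfUnity n ℂ,
      sg ρ m (x : E ρ m) = ((c : ℂˣ) : ℂ) • (1 : Module.End ℂ V) := by
    intro x
    obtain ⟨c, hc, hc1⟩ := exists_scalar_of_ker hρ (x : E ρ m) x.2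
    rw [← pow_mul] at hc1
    refine ⟨rootsOfUnity.mkOfPowEq c hc1, ?_⟩
    rw [rootsOfUnity.coe_mkOfPowEq]
    exact hc
  choose f hf using h1
  refine Finite.of_injective f fun x y hxy => Subtype.ext (ext_of ρ m ?_ ?_)
  · rw [x.2, y.2]
  · rw [hf x, hf y, hxy]

theorem finite_E (hρ : ρ.IsIrreducible) (hm : m ≠ 0) : Finite (E ρ m) := by
  haveI := finite_ker hρ hm
  haveI : Finite (E ρ m ⧸ (pr ρ m).ker) :=
    Finite.of_injective _ (QuotientGroup.kerLift_injective (pr ρ m))
  exact Finite.of_subgroup_quotient (pr ρ m).ker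

/-- surjectivity -/
theorem pr_surj (hρ : ρ.IsIrreducible)
    (hinv : ∀ (g : G) (n : K), ρ.character (MulAut.conjNormal g n) = ρ.character n) :
    Function.Surjective (pr ρ m) := by
  haveI : Nontrivial V := by
    by_contra h
    rw [not_nontrivial_iff_subsingleton] at h
    have h2 := hρ.exists_pair_ne
    obtain ⟨a, b, hab⟩ := h2
    apply hab
    apply Subrepresentation.toSubmodule_injective
    exact Subsingleton.elim _ _
  intro g
  obtain ⟨S, hS⟩ := exists_intw hρ g (hinv g)
  have hd : LinearMap.det (S : Module.End ℂ V) ≠ 0 := by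
    have h1 : LinearMap.det (S : Module.End ℂ V) * LinearMap.det ((S⁻¹ : (Module.End ℂ V)ˣ) : Module.End ℂ V) = 1 := by
      rw [← map_mul, Units.mul_inv, map_one]
    exact left_ne_zero_of_mul_eq_one h1
  obtain ⟨c, hc⟩ := IsAlgClosed.exists_pow_nat_eq (LinearMap.det (S : Module.End ℂ V))⁻¹
    (Module.finrank_pos (R := ℂ) (M := V))
  have hc0 : c ≠ 0 := by
    rintro rfl
    rw [zero_pow Module.finrank_pos.ne'] at hc
    exact inv_ne_zero hd hc.symm
  let T : (Module.End ℂ V)ˣ := Units.map (algebraMap ℂ (Module.End ℂ V)).toMonoidHom (Units.mk0 c hc0) * S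
  have hT : (T : Module.End ℂ V) = c • (S : Module.End ℂ V) := by
    show (algebraMap ℂ (Module.End ℂ V) c) * (S : Module.End ℂ V) = _
    rw [Algebra.smul_def]
  refine ⟨⟨(g, T), ?_, ?_⟩, rfl⟩
  · show Intw ρ g (T : Module.End ℂ V)
    rw [hT]; exact hS.smul c
  · show (LinearMap.det (T : Module.End ℂ V)) ^ m = 1
    rw [hT, LinearMap.det_smul, hc, inv_mul_cancel₀ hd, one_pow]

/-- embedding of the normal subgroup -/
noncomputable def emb (hm : ∀ n : K, n ^ m = 1) : K →* E ρ m where
  toFun n := ⟨((n : G), ⟨ρ n, ρ n⁻¹, by rw [← map_mul, mul_inv_cancel, map_one],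
    by rw [← map_mul, inv_mul_cancel, map_one]⟩), intw_self ρ n, by
      show LinearMap.det (ρ n) ^ m = 1
      rw [← map_pow, ← map_pow, hm, map_one, map_one]⟩
  map_one' := ext_of ρ m rfl (by show ρ 1 = 1; rw [map_one])
  map_mul' a b := ext_of ρ m rfl (by show ρ (a * b) = ρ a * ρ b; rw [map_mul])

theorem pr_emb (hm : ∀ n : K, n ^ m = 1) (n : K) : pr ρ m (emb hm n) = n := rfl

theorem sg_emb (hm : ∀ n : K, n ^ m = 1) (n : K) : sg ρ m (emb hm n) = ρ n := rfl

theorem emb_inj (hm : ∀ n : K, n ^ m = 1) : Function.Injective (emb (ρ := ρ) hm) := by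
  intro a b h
  have := congrArg (pr ρ m) h
  rw [pr_emb, pr_emb] at this
  exact Subtype.ext this

theorem emb_conj (hm : ∀ n : K, n ^ m = 1) (x : E ρ m) (n : K) :
    x * emb hm n * x⁻¹ = emb hm (MulAut.conjNormal (pr ρ m x) n) := by
  rw [mul_inv_eq_iff_eq_mul]
  apply ext_of
  · rw [map_mul, map_mul, pr_emb, pr_emb, MulAut.conjNormal_apply]
    group
  · rw [map_mul, map_mul, sg_emb, sg_emb]
    exact x.2.1 n

theorem normal_range (hm : ∀ n : K, n ^ m = 1) : (emb (ρ := ρ) hm).range.Normal := by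
  refine ⟨?_⟩
  rintro _ ⟨n, rfl⟩ x
  rw [emb_conj]
  exact ⟨_, rfl⟩

end lift

section main
variable {G : Type u} [Group G] [Fintype G]

/-- `χ(1)/θ(1)` divides `|G : A|` -/
theorem ratio_dvd (K : Subgroup G) [hK : K.Normal] [Fintype K] {θ : K → ℂ}
    (hθ : IsIrrCharacter K θ) (hinv : ∀ (g : G) (n : K), θ (MulAut.conjNormal g n) = θ n)
    {χ : G → ℂ} (hχ : IsIrrCharacter G χ) (hne : classInner (fun n : K => χ n) θ ≠ 0)
    (A : Subgroup G) [hA : A.Normal] (hKA : K ≤ A) {p k : ℕ} (hp : p.Prime)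
    (hpK : ¬ p ∣ Nat.card K)
    (hab : ∀ a ∈ A, ∀ b ∈ A, a * b * a⁻¹ * b⁻¹ ∈ K) (hpow : ∀ a ∈ A, a ^ p ^ k ∈ K)
    {a b : ℕ} (ha : χ 1 = a) (hb : θ 1 = b) : ∃ c, a = c * b ∧ c ∣ A.index := by
  classical
  obtain ⟨d, ρ, hρ, rfl⟩ := hθ
  have hd : (b : ℂ) = d := by
    rw [← hb, Representation.char_one, Module.finrank_fin_fun]
  have hbd : b = d := by exact_mod_cast hd
  set m := Nat.card K with hm
  have hm0 : m ≠ 0 := Nat.card_pos.ne'
  have hmp : ∀ n : K, n ^ m = 1 := fun n => pow_card_eq_one'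
  haveI := finite_E (m := m) hρ hm0
  letI := Fintype.ofFinite (E ρ m)
  haveI hN := normal_range (ρ := ρ) hmp
  set N := (emb (ρ := ρ) hmp).range with hNdef
  letI := Fintype.ofFinite N
  have hsurj : Function.Surjective (pr ρ m) := pr_surj hρ hinv
  -- the extended character
  have hσc : IsCharacter (E ρ m) (sg ρ m).character := isCharacter_of_rep _
  let eN : K ≃* N := MonoidHom.ofInjective (emb_inj (ρ := ρ) hmp)
  have heN : ∀ n : K, ((eN n : N) : E ρ m) = emb hmp n := fun n => rfl
  have hθirr : IsIrrCharacter K ρ.character := ⟨d, ρ, hρ, rfl⟩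
  have hres : (fun n : N => (sg ρ m).character n) = fun n : N => ρ.character (eN.symm n) := by
    funext n
    obtain ⟨k, rfl⟩ := eN.surjective n
    rw [MulEquiv.symm_apply_apply]
    rfl
  have hσN : IsIrrCharacter N (fun n : N => (sg ρ m).character n) := by
    rw [hres]
    exact (isIrrCharacter_mulEquiv eN.symm).1 hθirr
  have hσirr : (sg ρ m).IsIrreducible := by
    apply H19.ProjExt2.isIrreducible_of_restrict (N := N)
    have h1 : ((sg ρ m).comp N.subtype : Representation ℂ N (Fin d → ℂ)) =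
        ρ.comp eN.symm.toMonoidHom := by
      apply MonoidHom.ext
      intro n
      obtain ⟨k, rfl⟩ := eN.surjective n
      show sg ρ m (eN k : E ρ m) = ρ (eN.symm (eN k))
      rw [MulEquiv.symm_apply_apply]
      rfl
    rw [h1]
    exact isIrreducible_comp_equiv eN.symm hρ
  have hσ : IsIrrCharacter (E ρ m) (sg ρ m).character := ⟨d, sg ρ m, hσirr, rfl⟩
  have hχE : IsIrrCharacter (E ρ m) (fun x => χ (pr ρ m x)) := isIrrCharacter_comp (pr ρ m) hsurj hχ
  have hne' : classInner (fun n : N => χ (pr ρ m n)) (fun n : N => (sg ρ m).character n) ≠ 0 := by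
    rw [hres]
    have h1 : (fun n : N => χ (pr ρ m n)) = fun n : N => (fun k : K => χ k) (eN.symm n) := by
      funext n
      obtain ⟨k, rfl⟩ := eN.surjective n
      rw [MulEquiv.symm_apply_apply]
      rfl
    rw [h1]
    have h2 := classInner_mulEquiv eN.symm (fun k : K => χ k) ρ.character
    rw [h2]
    exact hne
  obtain ⟨β, hβ, hβN, hβχ⟩ := H83.Gallagher.exists_eq_mul hσ N hσN hχE hne'
  -- degrees
  obtain ⟨c, hc⟩ := exists_degree (isCharacter_of_isIrr hβ)
  refine ⟨c, ?_, ?_⟩
  · have h1 := congrFun hβχ 1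
    simp only [map_one] at h1
    rw [ha, hc, Representation.char_one, Module.finrank_fin_fun, ← hd] at h1
    exact_mod_cast h1
  · have hpd : ¬ p ∣ d := by
      intro h
      apply hpK
      have h2 := H20.Defect.charDegree_dvd_card (⟨ρ.character, hθirr⟩ : IrrCharacter K)
      have h3 : charDegree (((⟨ρ.character, hθirr⟩ : IrrCharacter K) : IrrCharacter K) : K → ℂ) = d := by
        have h4 := H20.Defect.charDegree_irr (⟨ρ.character, hθirr⟩ : IrrCharacter K)
        have h5 : (((⟨ρ.character, hθirr⟩ : IrrCharacter K) : IrrCharacter K) : K → ℂ) 1 = d := by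
          show ρ.character 1 = d
          rw [Representation.char_one, Module.finrank_fin_fun]
        rw [h5] at h4
        exact_mod_cast h4
      rw [h3] at h2
      exact h.trans h2
    have hββ := isIrrCharacter_deflate N hβ hβN
    have hβ1 : deflate N β 1 = c := by
      have h1 := deflate_mk N (isCharacter_of_isIrr hβ) hβN 1
      rw [hc] at h1
      exact h1
    let A' : Subgroup (E ρ m) := A.comap (pr ρ m)
    haveI : A'.Normal := Subgroup.Normal.comap hA _
    let A'' : Subgroup (E ρ m ⧸ N) := A'.map (QuotientGroup.mk' N)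
    haveI : A''.Normal := Subgroup.Normal.map inferInstance _ (QuotientGroup.mk'_surjective N)
    have hidx : A''.index = A.index := by
      rw [Subgroup.index_map_eq _ (QuotientGroup.mk'_surjective N), Subgroup.index_comap_of_surjective _ hsurj]
      rw [QuotientGroup.ker_mk']
      rintro _ ⟨n, rfl⟩
      show pr ρ m (emb hmp n) ∈ A
      rw [pr_emb]
      exact hKA n.2
    rw [← hidx]
    refine H4.CenterIndex.ito hββ hβ1 A'' ?_
    -- central images
    have hcen : ∀ x : E ρ m, pr ρ m x ∈ K → ∃ z : E ρ m, pr ρ m z = 1 ∧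
        QuotientGroup.mk' N x = QuotientGroup.mk' N z := by
      intro x hx
      refine ⟨(emb hmp ⟨pr ρ m x, hx⟩)⁻¹ * x, ?_, ?_⟩
      · rw [map_mul, map_inv, pr_emb, inv_mul_cancel]
      · rw [map_mul, map_inv]
        have h1 : QuotientGroup.mk' N (emb (ρ := ρ) hmp ⟨pr ρ m x, hx⟩) = 1 :=
          (QuotientGroup.eq_one_iff _).2 ⟨_, rfl⟩
        rw [h1, inv_one, one_mul]
    rintro _ ⟨x, hx, rfl⟩ _ ⟨y, hy, rfl⟩
    have hx' : pr ρ m x ∈ A := hx
    have hy' : pr ρ m y ∈ A := hy
    obtain ⟨z, hz1, hz2⟩ := hcen (x * y * x⁻¹ * y⁻¹) (by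
      rw [map_mul, map_mul, map_mul, map_inv, map_inv]
      exact hab _ hx' _ hy')
    obtain ⟨w, hw1, hw2⟩ := hcen (x ^ p ^ k) (by
      rw [map_pow]
      exact hpow _ hx')
    set X := QuotientGroup.mk' N x with hX
    set Y := QuotientGroup.mk' N y with hY
    set C := QuotientGroup.mk' N z with hC
    have hCc : ∀ g : E ρ m ⧸ N, C * g = g * C := by
      intro g
      obtain ⟨g, rfl⟩ := QuotientGroup.mk'_surjective N g
      rw [hC, ← map_mul, ker_central hρ z hz1, map_mul]
    have hWc : X ^ p ^ k * Y = Y * X ^ p ^ k := by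
      rw [hX, ← map_pow, hw2, hY, ← map_mul, ker_central hρ w hw1, map_mul]
    have hXY : X * Y = C * (Y * X) := by
      rw [← hz2, map_mul, map_mul, map_mul, map_inv, map_inv, ← hX, ← hY]
      group
    have hpowXY : ∀ j : ℕ, X ^ j * Y = C ^ j * (Y * X ^ j) := by
      intro j
      induction j with
      | zero => simp
      | succ j ih =>
        calc X ^ (j + 1) * Y = X ^ j * (X * Y) := by rw [pow_succ, mul_assoc]
          _ = X ^ j * C * (Y * X) := by rw [hXY, mul_assoc]
          _ = C * (X ^ j * Y) * X := by rw [← hCc]; simp only [mul_assoc]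
          _ = C * (C ^ j * (Y * X ^ j)) * X := by rw [ih]
          _ = _ := by rw [pow_succ' C, pow_succ X]; simp only [mul_assoc]
    have hC1 : C ^ p ^ k = 1 := by
      have h1 := hpowXY (p ^ k)
      rw [hWc] at h1
      exact (mul_eq_right.1 h1.symm)
    have hC2 : C ^ (d * m) = 1 := by
      rw [hC, ← map_pow]
      have h1 := ker_pow hρ z hz1
      rw [Module.finrank_fin_fun] at h1
      rw [h1, map_one]
    have hco : Nat.Coprime (p ^ k) (d * m) := by
      apply Nat.Coprime.pow_left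
      rw [Nat.Prime.coprime_iff_not_dvd hp, hp.dvd_mul]
      rintro (h | h)
      · exact hpd h
      · exact hpK h
    have hC3 : C = 1 := by
      rw [← orderOf_eq_one_iff]
      exact Nat.eq_one_of_dvd_coprimes hco (orderOf_dvd_of_pow_eq_one hC1) (orderOf_dvd_of_pow_eq_one hC2)
    rw [hXY, hC3, one_mul]

end main

end H20.Trip
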