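import Mathlib
import Cfsg.Prelude.Def_Blocks
import Cfsg.Prelude.Def_Local
import Cfsg.Agent.Lib.H20.Trip
import Cfsg.Agent.Lib.H20.NPC
import Cfsg.Agent.Lib.H20.DefGrp
import Cfsg.Agent.Lib.H1.Cores
import Cfsg.Agent.Lib.H37.PSolv
import Cfsg.Agent.S4436
import Cfsg.Agent.S4492

/-! Heights in blocks of `p`-solvable groups (S4439). -/

set_option autoImplicit false
set_option linter.unusedSectionVars false
set_option linter.unusedVariables false
set_option linter.style.haveILetI false
open Cfsg H20.Loc H20.GA H20.Blk H20.DefGrp H20.Defect H20.Orth H20.Height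
open H77.Cov1 H77.CovFR H77.CovFR2
open scoped ComplexConjugate

universe u

namespace H20.PSHeight

section grp
variable {G : Type u} [Group G] [Finite G] {p : ℕ} [hp : Fact p.Prime]

/-- a normal subgroup `A` with `A/K` abelian `p`-group containing the centre of a Sylow subgroup -/
theorem exists_A (hG : IsPSolvable p G) :
    ∃ A : Subgroup G, A.Normal ∧ pPrimeCore p G ≤ A ∧
      (∀ a ∈ A, ∀ b ∈ A, a * b * a⁻¹ * b⁻¹ ∈ pPrimeCore p G) ∧
      (∃ k : ℕ, ∀ a ∈ A, a ^ p ^ k ∈ pPrimeCore p G) ∧
      ∀ P : Sylow p G, ∀ z ∈ (P : Subgroup G), (∀ x ∈ (P : Subgroup G), x * z = z * x) → z ∈ A := by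
  set K := pPrimeCore p G with hK
  set O := pCore p (G ⧸ K) with hO
  have hOp : IsPGroup p O := H1.Cores.isPGroup_pCore p
  have hHH : Subgroup.centralizer (O : Set (G ⧸ K)) ≤ O :=
    H37.PSolv.centralizer_pCore_le (H37.PSolv.quotient hG K) (H1.Cores.pPrimeCore_quotient_pPrimeCore p)
  have hO' : O.Normal := inferInstance
  haveI : (O ⊓ Subgroup.centralizer (O : Set (G ⧸ K))).Normal := inferInstance
  refine ⟨(O ⊓ Subgroup.centralizer (O : Set (G ⧸ K))).comap (QuotientGroup.mk' K), inferInstance, ?_, ?_, ?_, ?_⟩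
  · intro x hx
    have h1 : QuotientGroup.mk' K x = 1 := (QuotientGroup.eq_one_iff x).2 hx
    rw [Subgroup.mem_comap, h1]
    exact Subgroup.one_mem _
  · intro a ha b hb
    have h1 := Subgroup.mem_centralizer_iff.1 (Subgroup.mem_inf.1 (Subgroup.mem_comap.1 ha)).2 _
      (Subgroup.mem_inf.1 (Subgroup.mem_comap.1 hb)).1
    rw [← QuotientGroup.eq_one_iff]
    show QuotientGroup.mk' K (a * b * a⁻¹ * b⁻¹) = 1
    rw [map_mul, map_mul, map_mul, map_inv, map_inv, ← h1]
    group
  · obtain ⟨k, hk⟩ := IsPGroup.iff_card.1 hOp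
    refine ⟨k, fun a ha => ?_⟩
    have h1 := (Subgroup.mem_inf.1 (Subgroup.mem_comap.1 ha)).1
    rw [← QuotientGroup.eq_one_iff]
    show QuotientGroup.mk' K (a ^ p ^ k) = 1
    rw [map_pow, ← hk]
    have h2 : (⟨QuotientGroup.mk' K a, h1⟩ : O) ^ Nat.card O = 1 := pow_card_eq_one'
    exact congrArg Subtype.val h2
  · intro P z hz hc
    have h1 : O ≤ (P : Subgroup G).map (QuotientGroup.mk' K) :=
      H1.Cores.pCore_le_sylow (P.mapSurjective (QuotientGroup.mk'_surjective K))
    have h2 : QuotientGroup.mk' K z ∈ Subgroup.centralizer (O : Set (G ⧸ K)) := by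
      rw [Subgroup.mem_centralizer_iff]
      intro y hy
      obtain ⟨x, hx, rfl⟩ := h1 hy
      rw [← map_mul, ← map_mul, hc x hx]
    exact Subgroup.mem_comap.2 (Subgroup.mem_inf.2 ⟨hHH h2, h2⟩)

end grp

section main

theorem height_le {G : Type u} [Group G] {p : ℕ} (B : Set (IrrCharacter G)) (χ : G → ℂ) :
    blockHeight p B χ ≤ (charDegree χ).factorization p := Nat.sub_le _ _

theorem invariant_case {G : Type u} [Group G] [Fintype G] {p : ℕ} [hp : Fact p.Prime]
    (hG : IsPSolvable p G) [hN : (pPrimeCore p G).Normal] [Fintype (pPrimeCore p G)]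
    (θ : IrrCharacter (pPrimeCore p G))
    (hinv : ∀ (g : G) (n : pPrimeCore p G),
      (θ : pPrimeCore p G → ℂ) ⟨g * n * g⁻¹, hN.conj_mem n n.2 g⟩ = (θ : pPrimeCore p G → ℂ) n)
    (P : Sylow p G) (χ : IrrCharacter G)
    (h : classInner (fun n : pPrimeCore p G => (χ : G → ℂ) n) (θ : pPrimeCore p G → ℂ) ≠ 0) :
    (charDegree (χ : G → ℂ)).factorization p ≤
      ((Subgroup.center (P : Subgroup G)).index).factorization p := by
  obtain ⟨A, hA, hKA, hab, ⟨k, hpow⟩, hcen⟩ := exists_A hG
  have hcop := H1.Cores.coprime_card_pPrimeCore (G := G) p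
  have hpK : ¬ p ∣ Nat.card (pPrimeCore p G) := by
    rw [← hp.out.coprime_iff_not_dvd]; exact hcop.symm
  obtain ⟨c, hc1, hc2⟩ := Trip.ratio_dvd (pPrimeCore p G) θ.2 (fun g n => hinv g n) χ.2 h A hKA hp.out hpK
    hab hpow (charDegree_irr χ).symm (charDegree_irr θ).symm
  have hθ : ¬ p ∣ charDegree (θ : pPrimeCore p G → ℂ) := fun h => hpK (h.trans (charDegree_dvd_card θ))
  have hc0 : c ≠ 0 := by
    rintro rfl
    exact Subgroup.index_ne_zero_of_finite (Nat.eq_zero_of_zero_dvd hc2)
  have h1 : (charDegree (χ : G → ℂ)).factorization p = c.factorization p := by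
    rw [hc1, Nat.factorization_mul hc0 (charDegree_ne_zero θ), Finsupp.add_apply,
      Nat.factorization_eq_zero_of_not_dvd hθ, add_zero]
  have h2 : c.factorization p ≤ A.index.factorization p :=
    (Nat.factorization_le_iff_dvd hc0 Subgroup.index_ne_zero_of_finite).2 hc2 p
  have h3 : (Nat.card G).factorization p = (Nat.card A).factorization p + A.index.factorization p := by
    rw [← Subgroup.card_mul_index A, Nat.factorization_mul Nat.card_pos.ne'
      Subgroup.index_ne_zero_of_finite, Finsupp.add_apply]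
  have h4 : (Nat.card (P : Subgroup G)).factorization p =
      (Nat.card (Subgroup.center (P : Subgroup G))).factorization p +
        (Subgroup.center (P : Subgroup G)).index.factorization p := by
    rw [← Subgroup.card_mul_index (Subgroup.center (P : Subgroup G)),
      Nat.factorization_mul Nat.card_pos.ne'
      Subgroup.index_ne_zero_of_finite, Finsupp.add_apply]
  have h5 : (Nat.card (P : Subgroup G)).factorization p = (Nat.card G).factorization p := by
    rw [P.card_eq_multiplicity, Nat.factorization_pow, Finsupp.smul_apply,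
      hp.out.factorization_self, smul_eq_mul, mul_one]
  have h6 : (Nat.card (Subgroup.center (P : Subgroup G))).factorization p ≤
      (Nat.card A).factorization p := by
    refine (Nat.factorization_le_iff_dvd Nat.card_pos.ne' Nat.card_pos.ne').2 ?_ p
    have h7 : (Subgroup.center (P : Subgroup G)).map (P : Subgroup G).subtype ≤ A := by
      rintro _ ⟨z, hz, rfl⟩
      refine hcen P _ z.2 fun x hx => ?_
      exact congrArg Subtype.val (Subgroup.mem_center_iff.1 hz ⟨x, hx⟩)
    have h8 := Subgroup.card_dvd_of_le h7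
    rwa [Subgroup.card_map_of_injective (Subgroup.subtype_injective _)] at h8
  omega

theorem center_index_equiv {A B : Type*} [Group A] [Group B] (e : A ≃* B) :
    (Subgroup.center A).index = (Subgroup.center B).index := by
  have h : (Subgroup.center A).map (e : A →* B) = Subgroup.center B := by
    ext b
    constructor
    · rintro ⟨a, ha, rfl⟩
      rw [Subgroup.mem_center_iff]
      intro y
      obtain ⟨x, rfl⟩ := e.surjective y
      show e x * e a = e a * e x
      rw [← map_mul, ← map_mul, Subgroup.mem_center_iff.1 ha x]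
    · intro hb
      obtain ⟨a, rfl⟩ := e.surjective b
      refine ⟨a, ?_, rfl⟩
      rw [SetLike.mem_coe, Subgroup.mem_center_iff]
      intro x
      apply e.injective
      rw [map_mul, map_mul, Subgroup.mem_center_iff.1 hb (e x)]
  rw [← h]
  exact (Subgroup.index_map_equiv (H := Subgroup.center A) e).symm

theorem main (n : ℕ) : ∀ {G : Type u} [Group G] [Finite G], Nat.card G = n →
    ∀ (p : ℕ) [Fact p.Prime] (M : Ideal AlgInt), IsPModular p M → IsPSolvable p G →
    ∀ (B : Set (IrrCharacter G)), IsPBlock M B → ∀ (P : Subgroup G), IsDefectGroup p M B P →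
    ∀ (χ : IrrCharacter G), χ ∈ B →
      blockHeight p B (χ : G → ℂ) ≤ ((Subgroup.center P).index).factorization p := by
  classical
  induction n using Nat.strong_induction_on with
  | _ n ih =>
  intro G _ _ hn p _ M hM hG B hB P hP χ hχ
  haveI := pm_isPrime hM
  have hpp := pm_prime hM
  letI := Fintype.ofFinite G
  haveI hN : (pPrimeCore p G).Normal := inferInstance
  set K := pPrimeCore p G with hK
  letI := Fintype.ofFinite K
  have hpK : ¬ p ∣ Nat.card K := by
    rw [← hpp.coprime_iff_not_dvd]; exact (H1.Cores.coprime_card_pPrimeCore (G := G) p).symm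
  obtain ⟨θ0, hθ0, hne⟩ := H18.CharQuot.exists_constituent_restrict K χ.2
  let θ : IrrCharacter K := ⟨θ0, hθ0⟩
  have hne' : classInner (fun n : K => (χ : G → ℂ) n) (θ : K → ℂ) ≠ 0 := hne
  have hb : IsPBlock M ({θ} : Set (IrrCharacter K)) := by
    rw [← NPC.blockOf_eq_singleton_of_card hM hpK θ]
    exact isPBlock_blockOf θ
  set T := H31.Clifford.inertia K (θ : K → ℂ) with hT
  by_cases hTtop : T = ⊤
  · have hinv : ∀ (g : G) (n : K), (θ : K → ℂ) ⟨g * n * g⁻¹, hN.conj_mem n n.2 g⟩ = (θ : K → ℂ) n := by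
      intro g
      have h1 : g ∈ T := by rw [hTtop]; trivial
      exact (H31.Clifford.mem_inertia_iff K).1 h1
    obtain ⟨B', hB', hmem, hdef1, hdef2⟩ := Cfsg.Agent.S4492.result p M hM hG K rfl θ hinv
    have h1 : χ ∈ B' := (hmem χ).2 hne'
    have h2 : B = B' := isPBlock_eq_of_mem hB hB' hχ h1
    subst h2
    obtain ⟨S, rfl⟩ := hdef2 P hP
    exact (height_le _ _).trans (invariant_case hG θ hinv S χ hne')
  · letI := Fintype.ofFinite T
    have hKT : K ≤ T := H31.Clifford.le_inertia K (H18.CharBasic.isClassFunction_of_isIrr θ.2)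
    have hTmem : ∀ g : G, g ∈ T ↔ ∀ θ' ∈ ({θ} : Set (IrrCharacter K)), ∀ θ'' : IrrCharacter K,
        (∀ n : K, (θ'' : K → ℂ) n = (θ' : K → ℂ) ⟨g * n * g⁻¹, hN.conj_mem n n.2 g⟩) →
          θ'' ∈ ({θ} : Set (IrrCharacter K)) := by
      intro g
      constructor
      · rintro hg θ' hθ' θ'' h
        obtain rfl := Set.mem_singleton_iff.1 hθ'
        rw [Set.mem_singleton_iff]
        apply Subtype.ext
        funext n
        rw [h n]
        exact (H31.Clifford.mem_inertia_iff K).1 hg n
      · intro h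
        have h1 := Set.mem_singleton_iff.1 (h θ rfl (cI K g θ) (fun n => rfl))
        exact H31.Clifford.mem_inertia K |>.2 (congrArg Subtype.val h1)
    have hst : Stab K ({θ} : Set (IrrCharacter K)) T := stab_of K hb hTmem
    obtain ⟨ψ, hψ1, hψ2⟩ := exists_ind_of_over K hKT M hM hst hb χ (Set.mem_singleton θ) hne'
    have hB' := isPBlock_blockOf (M := M) ψ
    obtain ⟨hirr, B'', hind, hm⟩ := fr K hKT M hM hst hb hB' (mem_blockOf_self ψ) (Set.mem_singleton θ) hψ2
    have hχ'' : χ ∈ B'' := (hm χ).2 ⟨ψ, mem_blockOf_self ψ, hψ1⟩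
    obtain rfl : B = B'' := isPBlock_eq_of_mem hB hind.2.1 hχ hχ''
    have h36 := Cfsg.Agent.S4436.result p M hM K _ hb T hTmem hKT _ hB'
      ⟨ψ, mem_blockOf_self ψ, θ, rfl, hψ2⟩ B hind
    obtain ⟨D, hD⟩ := exists_isDefectGroup hM hB'
    have hDB := h36.1 D hD
    obtain ⟨χ', hχ', h1, h2⟩ := h36.2 ψ (mem_blockOf_self ψ)
    have h3 : χ' = χ := Subtype.ext (h1.trans hψ1.symm)
    rw [h3] at h2
    rw [h2]
    have hcard : Nat.card T < n := by
      rw [← hn]
      refine lt_of_le_of_ne (Nat.le_of_dvd Nat.card_pos (Subgroup.card_subgroup_dvd_card T)) ?_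
      intro h
      exact hTtop (Subgroup.eq_top_of_card_eq T h)
    have h4 := ih _ hcard (G := T) rfl p M hM (H37.PSolv.subgroup hG T) _ hB' D hD ψ (mem_blockOf_self ψ)
    refine h4.trans (le_of_eq ?_)
    congr 1
    obtain ⟨x, hx⟩ := isDefectGroup_conj hM hB hDB hP
    have e1 : D ≃* (D.map T.subtype : Subgroup G) :=
      D.equivMapOfInjective T.subtype (Subgroup.subtype_injective T)
    have e2 : (D.map T.subtype : Subgroup G) ≃* P := by
      rw [hx]
      exact (D.map T.subtype).equivMapOfInjective _ (MulAut.conj x).injective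
    exact congrArg Nat.factorization (center_index_equiv (e1.trans e2))

end main

end H20.PSHeight
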