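import Cfsg.Agent.Lib.H96.FrDef

set_option autoImplicit false
set_option linter.unusedSectionVars false

open Matrix H96.Fr

namespace H20.Fr

variable {ι F : Type*} [Fintype ι] [DecidableEq ι] [Field F]
  {K : Subgroup ((ι → F) ≃ₗ[F] (ι → F))}

lemma e_apply (i k : ι) : (e i : ι → F) k = if k = i then 1 else 0 := by
  simp [e, Pi.single_apply]

lemma dot_e (x : ι → F) (a : ι) : x ⬝ᵥ (e a : ι → F) = x a := by
  simp [e]

lemma expand (x : ι → F) : x = ∑ q, x q • (e q : ι → F) := by
  funext p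
  simp [Finset.sum_apply, e_apply]

lemma map_expand (g : (ι → F) ≃ₗ[F] (ι → F)) (x : ι → F) (p : ι) :
    g x p = ∑ q, x q * g (e q) p := by
  conv_lhs => rw [expand x]
  simp [map_sum, Finset.sum_apply]

lemma dia_apply {g : (ι → F) ≃ₗ[F] (ι → F)} (hg : Dia g) (x : ι → F) (p : ι) :
    g x p = x p * g (e p) p := by
  rw [map_expand, Finset.sum_eq_single p]
  · intro q _ hq
    rcases hg q with h | h <;> simp [h, e_apply, Ne.symm hq]
  · intro h; exact absurd (Finset.mem_univ p) h

/-- coordinate subspace -/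
def V (S : Finset ι) : Submodule F (ι → F) where
  carrier := {x | ∀ p, p ∉ S → x p = 0}
  add_mem' := by
    intro x y hx hy p hp
    simp [hx p hp, hy p hp]
  zero_mem' := by
    intro p _; rfl
  smul_mem' := by
    intro c x hx p hp
    simp [hx p hp]

lemma mem_V {S : Finset ι} {x : ι → F} : x ∈ V (F := F) S ↔ ∀ p, p ∉ S → x p = 0 := Iff.rfl

/-- `V S ≃ (S → F)` -/
def VEquiv (S : Finset ι) : V (F := F) S ≃ₗ[F] (S → F) where
  toFun x i := x.1 i
  map_add' x y := rfl
  map_smul' c x := rfl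
  invFun f := ⟨fun p => if h : p ∈ S then f ⟨p, h⟩ else 0, fun p hp => by simp [hp]⟩
  left_inv x := by
    apply Subtype.ext
    funext p
    by_cases h : p ∈ S
    · simp [h]
    · simp [h, x.2 p h]
  right_inv f := by
    funext i
    simp

lemma finrank_V (S : Finset ι) : Module.finrank F (V (F := F) S) = S.card := by
  rw [(VEquiv (F := F) S).finrank_eq, Module.finrank_fintype_fun_eq_card, Fintype.card_coe]

lemma sg_e_in {i j : ι} {q : ι} (h : q = i ∨ q = j) : sg i j (e q : ι → F) = - e q := by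
  funext p
  rw [sg_apply]
  by_cases hp : p = q
  · subst hp; simp [h]
  · by_cases h1 : p = i ∨ p = j <;> simp [h1, e_apply, hp]

lemma sg_e_out {i j : ι} {q : ι} (h : ¬ (q = i ∨ q = j)) : sg i j (e q : ι → F) = e q := by
  funext p
  rw [sg_apply]
  by_cases hp : p = q
  · subst hp; simp [h]
  · by_cases h1 : p = i ∨ p = j <;> simp [h1, e_apply, hp]

lemma neg_eq_self {x : F} (h2 : (2 : F) ≠ 0) (h : x = - x) : x = 0 := by
  have : (2 : F) * x = 0 := by rw [two_mul]; nth_rw 1 [h]; ring
  exact (mul_eq_zero.mp this).resolve_left h2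

lemma e_ne_neg (h2 : (2 : F) ≠ 0) (p : ι) : (e p : ι → F) ≠ - e p := by
  intro h
  have := congrFun h p
  simp only [Pi.neg_apply] at this
  have h1 := neg_eq_self h2 this
  simp [e_apply] at h1

lemma sg_sq (i j : ι) : (sg i j : (ι → F) ≃ₗ[F] (ι → F)) * sg i j = 1 := by
  ext x : 1
  exact sgm_sgm i j x

lemma sg_inv (i j : ι) : (sg i j : (ι → F) ≃ₗ[F] (ι → F))⁻¹ = sg i j :=
  inv_eq_of_mul_eq_one_left (sg_sq i j)

lemma sg_comm (i j k l : ι) : (sg i j : (ι → F) ≃ₗ[F] (ι → F)) * sg k l = sg k l * sg i j := by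
  ext x p
  simp only [LinearEquiv.mul_apply, sg_apply]
  split_ifs <;> rfl

/-- a diagonal conjugate of `sg i j` is some `sg a b` -/
lemma dia_conj (h2 : (2 : F) ≠ 0) {k : (ι → F) ≃ₗ[F] (ι → F)} {i j : ι} (hij : i ≠ j)
    (hd : Dia (k * sg i j * k⁻¹)) : ∃ a b, a ≠ b ∧ k * sg i j * k⁻¹ = sg a b := by
  classical
  set t := k * sg i j * k⁻¹ with htd
  let S : Finset ι := Finset.univ.filter (fun p => t (e p) = - e p)
  have hS : ∀ p, p ∈ S ↔ t (e p) = - e p := fun p => by simp [S]
  have htk : ∀ x, t (k x) = k (sg i j x) := by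
    intro x
    have : t * k = k * sg i j := by rw [htd]; group
    have := congrArg (fun g : (ι → F) ≃ₗ[F] (ι → F) => g x) this
    simpa [LinearEquiv.mul_apply] using this
  have ht1 : ∀ p, p ∈ S → t (e p) p = -1 := by
    intro p hp
    rw [(hS p).1 hp]; simp [e_apply]
  have ht2 : ∀ p, p ∉ S → t (e p) p = 1 := by
    intro p hp
    rcases hd p with h | h
    · rw [h]; simp [e_apply]
    · exact absurd ((hS p).2 h) hp
  have hmem : ∀ x, x ∈ V (F := F) S ↔ t x = - x := by
    intro x
    rw [mem_V]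
    constructor
    · intro h
      funext p
      rw [dia_apply hd, Pi.neg_apply]
      by_cases hp : p ∈ S
      · rw [ht1 p hp]; ring
      · rw [h p hp]; simp
    · intro h p hp
      have h1 := congrFun h p
      rw [dia_apply hd, ht2 p hp, Pi.neg_apply, mul_one] at h1
      exact neg_eq_self h2 h1
  have hmem2 : ∀ x : ι → F, x ∈ V (F := F) ({i, j} : Finset ι) ↔ sg i j x = - x := by
    intro x
    rw [mem_V]
    constructor
    · intro h
      funext p
      rw [sg_apply, Pi.neg_apply]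
      by_cases hp : p = i ∨ p = j
      · simp [hp]
      · have := h p (by simpa using hp)
        simp [hp, this]
    · intro h p hp
      have h1 := congrFun h p
      rw [sg_apply, Pi.neg_apply, if_neg (by simpa using hp)] at h1
      exact neg_eq_self h2 h1
  have hmap : (V (F := F) ({i, j} : Finset ι)).map (k : (ι → F) →ₗ[F] (ι → F)) = V S := by
    ext y
    rw [Submodule.mem_map]
    constructor
    · rintro ⟨x, hx, rfl⟩
      rw [hmem]
      have h1 := (hmem2 x).1 hx
      have := htk x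
      rw [h1, map_neg] at this
      exact this
    · intro hy
      refine ⟨k.symm y, ?_, by simp⟩
      rw [hmem2]
      have h1 := (hmem y).1 hy
      have h3 := htk (k.symm y)
      rw [LinearEquiv.apply_symm_apply, h1] at h3
      apply k.injective
      rw [← h3, map_neg, LinearEquiv.apply_symm_apply]
  have hcard : S.card = 2 := by
    rw [← finrank_V (F := F) S, ← hmap]
    have := LinearEquiv.finrank_map_eq k (V (F := F) ({i, j} : Finset ι))
    rw [this, finrank_V, Finset.card_pair hij]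
  obtain ⟨a, b, hab, hSab⟩ := Finset.card_eq_two.1 hcard
  refine ⟨a, b, hab, ?_⟩
  ext x p
  rw [dia_apply hd, sg_apply]
  by_cases hp : p = a ∨ p = b
  · rw [if_pos hp, ht1 p (by rw [hSab]; simpa using hp)]; ring
  · rw [if_neg hp, ht2 p (by rw [hSab]; simpa using hp)]; ring

lemma exists_third (hN : 3 ≤ Fintype.card ι) (x c : ι) : ∃ y, y ≠ x ∧ y ≠ c := by
  classical
  by_contra hcon
  push Not at hcon
  have : (Finset.univ : Finset ι) ⊆ {x, c} := by
    intro y _
    by_cases h : y = x
    · simp [h]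
    · simp [hcon y h]
  have h1 := Finset.card_le_card this
  have h2 : ({x, c} : Finset ι).card ≤ 2 := Finset.card_le_two
  rw [Finset.card_univ] at h1
  omega

/-- if all conjugates of the `sg x y` are diagonal then `k` is monomial -/
lemma mon_of_dia (h2 : (2 : F) ≠ 0) (hN : 5 ≤ Fintype.card ι) {k : (ι → F) ≃ₗ[F] (ι → F)}
    (hk : Iso k) (h : ∀ x y, x ≠ y → Dia (k * sg x y * k⁻¹)) : Mon k := by
  intro c
  have hv : k (e c) ≠ 0 := by
    intro h0
    have : (e c : ι → F) = 0 := k.injective (by rw [h0, map_zero])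
    have := congrFun this c
    simp [e_apply] at this
  obtain ⟨p, hp⟩ : ∃ p, k (e c) p ≠ 0 := by
    by_contra hcon
    push Not at hcon
    exact hv (funext hcon)
  have hw : ∀ x, x ≠ c → (k⁻¹ (e p) : ι → F) x = 0 := by
    intro x hx
    obtain ⟨y, hy1, hy2⟩ := exists_third (by omega) x c
    have hD := h x y (Ne.symm hy1)
    have hfix : (k * sg x y * k⁻¹ : (ι → F) ≃ₗ[F] (ι → F)) (k (e c)) = k (e c) := by
      have : k * sg x y * k⁻¹ * k = k * sg x y := by group
      have h1 := congrArg (fun g : (ι → F) ≃ₗ[F] (ι → F) => g (e c)) this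
      simp only [LinearEquiv.mul_apply] at h1 ⊢
      rw [h1, sg_e_out (by
        rintro (h3 | h3)
        · exact hx h3.symm
        · exact hy2 h3.symm)]
    have hep : (k * sg x y * k⁻¹ : (ι → F) ≃ₗ[F] (ι → F)) (e p) = e p := by
      rcases hD p with h1 | h1
      · exact h1
      · exfalso
        have h3 := congrFun hfix p
        rw [dia_apply hD, h1] at h3
        simp only [Pi.neg_apply, e_apply, if_true] at h3
        apply hp
        apply neg_eq_self h2
        rw [mul_neg, mul_one] at h3; exact h3.symm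
    have h5 : sg x y (k⁻¹ (e p)) = k⁻¹ (e p) := by
      have h6 := congrArg (fun z => k⁻¹ z) hep
      have h7 : k⁻¹ * (k * sg x y * k⁻¹) = sg x y * k⁻¹ := by group
      have h8 := congrArg (fun g : (ι → F) ≃ₗ[F] (ι → F) => g (e p)) h7
      simp only [LinearEquiv.mul_apply] at h6 h8
      rw [h8] at h6
      exact h6
    have h9 := congrFun h5 x
    rw [sg_apply, if_pos (Or.inl rfl)] at h9
    exact neg_eq_self h2 h9.symm
  have hwe : (k⁻¹ (e p) : ι → F) = (k⁻¹ (e p) : ι → F) c • (e c : ι → F) := by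
    funext x
    by_cases hx : x = c
    · subst hx; simp [e_apply]
    · rw [hw x hx]; simp [e_apply, hx]
  set μ := (k⁻¹ (e p) : ι → F) c with hμ
  have hep : (e p : ι → F) = μ • k (e c) := by
    have h1 : k (k⁻¹ (e p)) = e p := by
      have : k * k⁻¹ = 1 := mul_inv_cancel k
      have h3 := congrArg (fun g : (ι → F) ≃ₗ[F] (ι → F) => g (e p)) this
      simpa [LinearEquiv.mul_apply] using h3
    rw [hwe, map_smul] at h1
    exact h1.symm
  have hμ2 : μ * μ = 1 := by
    have h1 : (e p : ι → F) ⬝ᵥ e p = 1 := by rw [dot_e]; simp [e_apply]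
    rw [hep, smul_dotProduct, dotProduct_smul, hk, dot_e] at h1
    simpa [e_apply] using h1
  have hke : k (e c) = μ • (e p : ι → F) := by
    rw [hep, smul_smul, hμ2, one_smul]
  refine ⟨p, ?_⟩
  rcases mul_self_eq_one_iff.1 hμ2 with h1 | h1
  · left; rw [hke, h1, one_smul]
  · right; rw [hke, h1, neg_one_smul]

theorem t2_of (D : Dat K) (h2 : (2:F) ≠ 0) (hN : 5 ≤ Fintype.card ι) (hc : C2 K)
    (ht : T2' K) : T2 K := by
  intro k hk i j hij hm
  by_cases hd : Dia (k * sg i j * k⁻¹)
  swap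
  · exact ht k hk i j hij hm hd
  obtain ⟨a, b, hab, hsg⟩ := dia_conj h2 hij hd
  by_cases hall : ∀ x y, x ≠ y → Dia (k * sg x y * k⁻¹)
  · exact mon_of_dia h2 hN (D.iso k hk) hall
  · push Not at hall
    obtain ⟨x, y, hxy, hnd⟩ := hall
    have hmem : k * sg x y * k⁻¹ ∈ K := K.mul_mem (K.mul_mem hk (D.sg x y hxy)) (K.inv_mem hk)
    have hM : Mon (k * sg x y * k⁻¹) := by
      apply hc _ hmem a b hab
      rw [← hsg]
      have := sg_comm (F := F) x y i j
      calc k * sg x y * k⁻¹ * (k * sg i j * k⁻¹) = k * (sg x y * sg i j) * k⁻¹ := by group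
        _ = k * (sg i j * sg x y) * k⁻¹ := by rw [this]
        _ = k * sg i j * k⁻¹ * (k * sg x y * k⁻¹) := by group
    exact ht k hk x y hxy hM hnd


/-! ### dihedral part -/

lemma dih {G : Type*} [Group G] (d t : G) (hd : d * d = 1) (ht : t * t = 1)
    (hev : ¬ Odd (orderOf (d * t))) (hpos : 0 < orderOf (d * t)) :
    ∃ m l : ℕ, (d * t) ^ m ≠ 1 ∧ (d * t) ^ m * d = d * (d * t) ^ m ∧
      (d * t) ^ m * t = t * (d * t) ^ m ∧
      ((d * t) ^ m * d = ((d * t) ^ l)⁻¹ * d * (d * t) ^ l ∨
        (d * t) ^ m * d = ((d * t) ^ l)⁻¹ * t * (d * t) ^ l) := by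
  rw [Nat.not_odd_iff_even] at hev
  obtain ⟨m, hm⟩ := hev
  have hdi : d⁻¹ = d := inv_eq_of_mul_eq_one_left hd
  have hti : t⁻¹ = t := inv_eq_of_mul_eq_one_left ht
  have hri : (d * t)⁻¹ = t * d := by rw [_root_.mul_inv_rev, hdi, hti]
  have hrd : d * (d * t) * d⁻¹ = (d * t)⁻¹ := by
    rw [hri, ← mul_assoc, hd, one_mul, hdi]
  have hrt : t * (d * t) * t⁻¹ = (d * t)⁻¹ := by
    rw [hri, mul_assoc, mul_assoc, mul_inv_cancel, mul_one]
  have hpd : ∀ n : ℕ, d * (d * t) ^ n = ((d * t) ^ n)⁻¹ * d := by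
    intro n
    have h1 : (d * (d * t) * d⁻¹) ^ n = d * (d * t) ^ n * d⁻¹ := conj_pow
    rw [hrd, inv_pow] at h1
    rw [h1]; group
  have hpt : ∀ n : ℕ, t * (d * t) ^ n = ((d * t) ^ n)⁻¹ * t := by
    intro n
    have h1 : (t * (d * t) * t⁻¹) ^ n = t * (d * t) ^ n * t⁻¹ := conj_pow
    rw [hrt, inv_pow] at h1
    rw [h1]; group
  have hu2 : (d * t) ^ m * (d * t) ^ m = 1 := by
    rw [← pow_add, ← hm, pow_orderOf_eq_one]
  have hui : ((d * t) ^ m)⁻¹ = (d * t) ^ m := inv_eq_of_mul_eq_one_left hu2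
  have hne : (d * t) ^ m ≠ 1 := by
    intro h
    have := orderOf_dvd_of_pow_eq_one h
    have := Nat.le_of_dvd (by omega) this
    omega
  have hcd : (d * t) ^ m * d = d * (d * t) ^ m := by
    have := hpd m
    rw [hui] at this
    exact this.symm
  have hct : (d * t) ^ m * t = t * (d * t) ^ m := by
    have := hpt m
    rw [hui] at this
    exact this.symm
  rcases Nat.even_or_odd m with ⟨l, hl⟩ | ⟨l, hl⟩
  · refine ⟨m, l, hne, hcd, hct, Or.inl ?_⟩
    rw [hcd, hl, pow_add, ← mul_assoc, hpd]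
  · refine ⟨m, l, hne, hcd, hct, Or.inr ?_⟩
    rw [hcd, hl, show 2 * l + 1 = 1 + (l + l) by ring, pow_add, pow_one, pow_add]
    have : d * (d * t * ((d * t) ^ l * (d * t) ^ l)) = (d * d) * (t * (d * t) ^ l) * (d * t) ^ l := by
      simp only [mul_assoc]
    rw [this, hd, one_mul, hpt]

lemma mon_mul {g h : (ι → F) ≃ₗ[F] (ι → F)} (hg : Mon g) (hh : Mon h) : Mon (g * h) := by
  intro i
  obtain ⟨j, hj⟩ := hh i
  obtain ⟨l, hl⟩ := hg j
  refine ⟨l, ?_⟩
  rw [LinearEquiv.mul_apply]
  rcases hj with hj | hj <;> rcases hl with hl | hl <;> simp [hj, hl]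

lemma e_inj {i j : ι} (h : (e i : ι → F) = e j) : i = j := by
  have := congrFun h i
  by_contra hne
  simp [e_apply, hne] at this

lemma e_inj' {i j : ι} (h : (e i : ι → F) = - e j) : i = j := by
  have := congrFun h i
  by_contra hne
  simp [e_apply, hne] at this

lemma mon_surj {g : (ι → F) ≃ₗ[F] (ι → F)} (hg : Mon g) (p : ι) :
    ∃ q, g (e q) = e p ∨ g (e q) = - e p := by
  choose π hπ using hg
  have hinj : Function.Injective π := by
    intro a b hab
    have ha := hπ a
    have hb := hπ b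
    rw [hab] at ha
    rcases ha with ha | ha <;> rcases hb with hb | hb
    · exact e_inj (g.injective (ha.trans hb.symm))
    · apply e_inj' (F := F)
      apply g.injective
      rw [map_neg, ha, hb, neg_neg]
    · apply e_inj' (F := F)
      apply g.injective
      rw [map_neg, ha, hb]
    · exact e_inj (g.injective (ha.trans hb.symm))
  obtain ⟨q, hq⟩ := (Finite.injective_iff_surjective.1 hinj) p
  exact ⟨q, by rw [← hq]; exact hπ q⟩

lemma sg_dia (i j : ι) : Dia (sg i j : (ι → F) ≃ₗ[F] (ι → F)) := by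
  intro p
  by_cases h : p = i ∨ p = j
  · right; exact sg_e_in h
  · left; exact sg_e_out h

lemma mon_conj_dia {g : (ι → F) ≃ₗ[F] (ι → F)} (hg : Mon g) (i j : ι) :
    Dia (g * sg i j * g⁻¹) := by
  intro p
  obtain ⟨q, hq⟩ := mon_surj hg p
  have hcalc : (g * sg i j * g⁻¹ : (ι → F) ≃ₗ[F] (ι → F)) (g (e q)) = g (sg i j (e q)) := by
    have : g * sg i j * g⁻¹ * g = g * sg i j := by group
    have h1 := congrArg (fun g : (ι → F) ≃ₗ[F] (ι → F) => g (e q)) this
    simpa only [LinearEquiv.mul_apply] using h1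
  rcases sg_dia (F := F) i j q with hs | hs <;> rw [hs] at hcalc <;>
    rcases hq with hq | hq <;> simp only [map_neg, hq] at hcalc
  · left; exact hcalc
  · left; exact neg_injective hcalc
  · right; exact hcalc
  · right; rw [neg_neg] at hcalc; exact neg_eq_iff_eq_neg.1 hcalc

lemma sg_symm (i j : ι) : (sg i j : (ι → F) ≃ₗ[F] (ι → F)) = sg j i := by
  ext x p
  simp only [sg_apply, or_comm]

lemma sg_share {c c' j : ι} (h1 : c ≠ c') (h2 : c ≠ j) (h3 : c' ≠ j) :
    (sg c c' : (ι → F) ≃ₗ[F] (ι → F)) * sg c j = sg c' j := by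
  ext x p
  simp only [LinearEquiv.mul_apply, sg_apply]
  by_cases ha : p = c
  · subst ha; simp [h1, h2]
  · by_cases hb : p = c'
    · subst hb; simp [ha, h3]
    · by_cases hc : p = j
      · subst hc; simp [ha, hb]
      · simp [ha, hb, hc]

lemma prod_cases {c c' i j : ι} (h1 : c ≠ c') (hij : i ≠ j) :
    (sg c c' : (ι → F) ≃ₗ[F] (ι → F)) * sg i j = 1 ∨
      (∃ p q, p ≠ q ∧ (sg c c' : (ι → F) ≃ₗ[F] (ι → F)) * sg i j = sg p q) ∨
      (c ≠ i ∧ c ≠ j ∧ c' ≠ i ∧ c' ≠ j) := by
  by_cases a1 : c = i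
  · subst a1
    by_cases a2 : c' = j
    · subst a2; left; exact sg_sq _ _
    · right; left; exact ⟨c', j, a2, sg_share h1 hij a2⟩
  by_cases a2 : c = j
  · subst a2
    by_cases a3 : c' = i
    · subst a3; left; rw [sg_symm c' c]; exact sg_sq _ _
    · right; left
      refine ⟨c', i, a3, ?_⟩
      rw [sg_symm i c]; exact sg_share h1 a1 a3
  by_cases a3 : c' = i
  · subst a3
    right; left
    refine ⟨c, j, a2, ?_⟩
    rw [sg_symm c c']; exact sg_share h1.symm hij a2
  by_cases a4 : c' = j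
  · subst a4
    right; left
    refine ⟨c, i, a1, ?_⟩
    rw [sg_symm c c', sg_symm i c']; exact sg_share h1.symm a3 a1
  exact Or.inr (Or.inr ⟨a1, a2, a3, a4⟩)

lemma sg_sub {i j : ι} (hij : i ≠ j) (y : ι → F) :
    sg i j y - y = (-2 * y i) • (e i : ι → F) + (-2 * y j) • e j := by
  funext p
  simp only [Pi.sub_apply, Pi.add_apply, Pi.smul_apply, sg_apply, e_apply, smul_eq_mul]
  by_cases h1 : p = i
  · subst h1; simp [hij]; ring
  · by_cases h3 : p = j
    · subst h3; simp [h1]; ring
    · simp [h1, h3]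

theorem odd_prod [Finite F] (D : Dat K) (h2 : (2:F) ≠ 0) (hN : 5 ≤ Fintype.card ι)
    (hr : MonLe K 4) (hc : C2 K) (ht : T2 K) {k : (ι → F) ≃ₗ[F] (ι → F)} (hk : k ∈ K)
    (hk' : ¬ Mon k) {i j a b : ι} (hij : i ≠ j) (hab : a ≠ b) :
    Odd (orderOf (sg i j * (k * sg a b * k⁻¹))) := by
  by_contra hev
  haveI : Finite ((ι → F) ≃ₗ[F] (ι → F)) := Finite.of_injective (fun g => (g : (ι → F) → (ι → F)))
    DFunLike.coe_injective
  have hpos : 0 < orderOf (sg i j * (k * sg a b * k⁻¹)) := orderOf_pos _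
  set t := k * sg a b * k⁻¹ with htd
  have htK : t ∈ K := K.mul_mem (K.mul_mem hk (D.sg a b hab)) (K.inv_mem hk)
  have hdK : sg i j ∈ K := D.sg i j hij
  have htt : t * t = 1 := by
    have := sg_sq (F := F) a b
    calc t * t = k * (sg a b * sg a b) * k⁻¹ := by rw [htd]; group
      _ = 1 := by rw [this]; group
  have hMt : ¬ Mon t := fun h => hk' (ht k hk a b hab h)
  obtain ⟨m, l, hne, hcd, hct, hconj⟩ := dih (sg i j) t (sg_sq i j) htt hev hpos
  set u := (sg i j * t) ^ m with hu
  have hrK : sg i j * t ∈ K := K.mul_mem hdK htK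
  have huK : u ∈ K := K.pow_mem hrK m
  have hMu : Mon u := hc u huK i j hij hcd
  have hMd : Mon (sg i j : (ι → F) ≃ₗ[F] (ι → F)) := by
    intro p
    exact ⟨p, sg_dia i j p⟩
  have hMud : Mon (u * sg i j) := mon_mul hMu hMd
  -- u * d = sg c c'
  have hex : ∃ c c', c ≠ c' ∧ u * sg i j = sg c c' := by
    have hrl : (sg i j * t) ^ l ∈ K := K.pow_mem hrK l
    rcases hconj with h | h
    · have h1 : ((sg i j * t) ^ l)⁻¹ * sg i j * (sg i j * t) ^ l
          = ((sg i j * t) ^ l)⁻¹ * sg i j * (((sg i j * t) ^ l)⁻¹)⁻¹ := by rw [inv_inv]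
      rw [h1] at h
      rw [h] at hMud
      have hM := ht _ (K.inv_mem hrl) i j hij hMud
      obtain ⟨c, c', h3, h4⟩ := dia_conj h2 hij (mon_conj_dia hM i j)
      exact ⟨c, c', h3, h.trans h4⟩
    · have h1 : ((sg i j * t) ^ l)⁻¹ * t * (sg i j * t) ^ l
          = (((sg i j * t) ^ l)⁻¹ * k) * sg a b * (((sg i j * t) ^ l)⁻¹ * k)⁻¹ := by
        rw [htd]; group
      rw [h1] at h
      rw [h] at hMud
      have hM := ht _ (K.mul_mem (K.inv_mem hrl) hk) a b hab hMud
      obtain ⟨c, c', h3, h4⟩ := dia_conj h2 hab (mon_conj_dia hM a b)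
      exact ⟨c, c', h3, h.trans h4⟩
  obtain ⟨c, c', hcc, hud⟩ := hex
  have hueq : u = sg c c' * sg i j := by
    rw [← hud, mul_assoc, sg_sq, mul_one]
  rcases prod_cases (F := F) hcc hij with h1 | ⟨p, q, hpq, h1⟩ | ⟨n1, n2, n3, n4⟩
  · exact hne (hueq.trans h1)
  · apply hMt
    apply hc t htK p q hpq
    rw [← h1, ← hueq]
    exact hct.symm
  · -- disjoint case
    let S : Finset ι := {c, c', i, j}
    have hScard : S.card = 4 := by
      simp [S, hcc, n1, n2, n3, n4, hij]
    let A : Submodule F (ι → F) := Submodule.span F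
      (Set.range ![(e i : ι → F), e j, k (e a), k (e b)])
    have hA : ∀ n : Fin 4, ![(e i : ι → F), e j, k (e a), k (e b)] n ∈ A := fun n =>
      Submodule.subset_span ⟨n, rfl⟩
    have hAi : (e i : ι → F) ∈ A := hA 0
    have hAj : (e j : ι → F) ∈ A := hA 1
    have hAa : k (e a) ∈ A := hA 2
    have hAb : k (e b) ∈ A := hA 3
    have hAd : ∀ y, sg i j y - y ∈ A := by
      intro y
      rw [sg_sub hij]
      exact A.add_mem (A.smul_mem _ hAi) (A.smul_mem _ hAj)
    have hAt : ∀ y, t y - y ∈ A := by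
      intro y
      have h3 : t y - y = k (sg a b (k⁻¹ y) - k⁻¹ y) := by
        rw [map_sub]
        have h4 : k (k⁻¹ y) = y := by
          have := mul_inv_cancel k
          have h5 := congrArg (fun g : (ι → F) ≃ₗ[F] (ι → F) => g y) this
          exact h5
        rw [h4]
        rfl
      rw [h3, sg_sub hab, map_add, map_smul, map_smul]
      exact A.add_mem (A.smul_mem _ hAa) (A.smul_mem _ hAb)
    have hAr : ∀ n : ℕ, ∀ y, ((sg i j * t) ^ n : (ι → F) ≃ₗ[F] (ι → F)) y - y ∈ A := by
      intro n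
      induction n with
      | zero => intro y; simp
      | succ n ih =>
        intro y
        have h3 : ((sg i j * t) ^ (n + 1) : (ι → F) ≃ₗ[F] (ι → F)) y - y
            = (((sg i j * t) ^ n : (ι → F) ≃ₗ[F] (ι → F)) (sg i j (t y)) - sg i j (t y)) + (sg i j (t y) - t y)
              + (t y - y) := by
          rw [pow_succ]
          simp only [LinearEquiv.mul_apply]
          abel
        rw [h3]
        exact A.add_mem (A.add_mem (ih _) (hAd _)) (hAt _)
    have huS : ∀ p ∈ S, u (e p) = - e p := by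
      intro p hp
      rw [hueq, LinearEquiv.mul_apply]
      simp only [S, Finset.mem_insert, Finset.mem_singleton] at hp
      by_cases h3 : p = i ∨ p = j
      · rw [sg_e_in h3, map_neg, sg_e_out]
        rintro (h4 | h4)
        · rcases h3 with h3 | h3
          · exact n1 (h4 ▸ h3)
          · exact n2 (h4 ▸ h3)
        · rcases h3 with h3 | h3
          · exact n3 (h4 ▸ h3)
          · exact n4 (h4 ▸ h3)
      · rw [sg_e_out h3, sg_e_in]
        rcases hp with h4 | h4 | h4 | h4
        · exact Or.inl h4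
        · exact Or.inr h4
        · exact absurd (Or.inl h4) h3
        · exact absurd (Or.inr h4) h3
    have hSA : V (F := F) S ≤ A := by
      intro x hx
      rw [expand x]
      apply Submodule.sum_mem
      intro p _
      by_cases hp : p ∈ S
      · apply A.smul_mem
        have h3 := hAr m (e p)
        rw [← hu, huS p hp] at h3
        have h4 : - (e p : ι → F) - e p = (-2 : F) • e p := by
          rw [neg_smul, two_smul]; abel
        rw [h4] at h3
        exact (Submodule.smul_mem_iff _ (neg_ne_zero.2 h2)).1 h3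
      · rw [hx p hp, zero_smul]; exact A.zero_mem
    have hfA : Module.finrank F A ≤ 4 := by
      have := finrank_range_le_card (R := F) ![(e i : ι → F), e j, k (e a), k (e b)]
      simpa [Set.finrank] using this
    have hVA : V (F := F) S = A :=
      Submodule.eq_of_le_of_finrank_le hSA (by rw [finrank_V, hScard]; exact hfA)
    rw [← hVA] at hAa hAb
    have hiso := D.iso k hk
    have hsup : Sup t S := by
      intro p hp
      have ha0 : (k⁻¹ (e p) : ι → F) a = 0 := by
        rw [← dot_e (k⁻¹ (e p) : ι → F) a, ← hiso]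
        have h4 : k (k⁻¹ (e p)) = e p := by
          have := mul_inv_cancel k
          exact congrArg (fun g : (ι → F) ≃ₗ[F] (ι → F) => g (e p)) this
        rw [h4, dotProduct_comm, dot_e]
        exact hAa p hp
      have hb0 : (k⁻¹ (e p) : ι → F) b = 0 := by
        rw [← dot_e (k⁻¹ (e p) : ι → F) b, ← hiso]
        have h4 : k (k⁻¹ (e p)) = e p := by
          have := mul_inv_cancel k
          exact congrArg (fun g : (ι → F) ≃ₗ[F] (ι → F) => g (e p)) this
        rw [h4, dotProduct_comm, dot_e]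
        exact hAb p hp
      have h3 : t (e p) - e p = k (sg a b (k⁻¹ (e p)) - k⁻¹ (e p)) := by
        rw [map_sub]
        have h4 : k (k⁻¹ (e p)) = e p := by
          have := mul_inv_cancel k
          exact congrArg (fun g : (ι → F) ≃ₗ[F] (ι → F) => g (e p)) this
        rw [h4]
        rfl
      rw [sg_sub hab, ha0, hb0] at h3
      simp only [mul_zero, zero_smul, add_zero, map_zero] at h3
      exact sub_eq_zero.1 h3
    exact hMt (hr t htK S (le_of_eq hScard) hsup)

end H20.Fr
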