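import Mathlib
import Cfsg.Prelude.Def_Blocks
import Cfsg.Agent.Lib.H20.PCDef
import Cfsg.Agent.Lib.H20.First

/-! Green's theorem on defect groups as Sylow intersections (S0956). -/

set_option autoImplicit false
set_option linter.unusedSectionVars false
set_option linter.unusedVariables false
set_option linter.style.haveILetI false
open Cfsg H20.Loc H20.GA H20.Blk H20.DefGrp H20.Defect H20.Orth H20.Height
open scoped ComplexConjugate

universe u

namespace H20.Green

section orbit
variable {p : ℕ} {M : Ideal AlgInt}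

/-- If an orbit-invariant weight has total `p^e * unit` and all the orbits in the support have size
divisible by `p^e`, then some orbit has size exactly `p^e` (up to higher powers) and unit weight. -/
theorem exists_orbit (hM : IsPModular p M) {Q : Type*} [Group Q] [Finite Q]
    {X : Type*} [MulAction Q X] [Fintype X] (f : X → ℂ) (hf : ∀ x, MemLocalRing M (f x))
    (hinv : ∀ (q : Q) (x : X), f (q • x) = f x) (e : ℕ)
    (he : ∀ x, f x ≠ 0 → p ^ e ∣ Nat.card (MulAction.orbit Q x)) {N : ℂ}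
    (hN : ¬ MemLocalIdeal M N) (hsum : ∑ x : X, f x = (p : ℂ) ^ e * N) :
    ∃ x, ¬ MemLocalIdeal M (f x) ∧ ¬ p ^ (e + 1) ∣ Nat.card (MulAction.orbit Q x) := by
  classical
  haveI := pm_isPrime hM
  by_contra! hcon
  have hp0 : (p : ℂ) ≠ 0 := by exact_mod_cast (pm_prime hM).ne_zero
  have hpe : (p : ℂ) ^ e ≠ 0 := pow_ne_zero _ hp0
  letI : Fintype (MulAction.orbitRel.Quotient Q X) := Fintype.ofFinite _
  letI : ∀ ω : MulAction.orbitRel.Quotient Q X, Fintype (MulAction.orbitRel.Quotient.orbit ω) :=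
    fun ω => Fintype.ofFinite _
  rw [← (MulAction.selfEquivSigmaOrbits' Q X).symm.sum_comp, Fintype.sum_sigma] at hsum
  have h1 : ∀ ω : MulAction.orbitRel.Quotient Q X,
      ∑ y : MulAction.orbitRel.Quotient.orbit ω,
        f ((MulAction.selfEquivSigmaOrbits' Q X).symm ⟨ω, y⟩) =
      (Nat.card (MulAction.orbit Q ω.out) : ℂ) * f ω.out := by
    intro ω
    have h1 : ∀ y : MulAction.orbitRel.Quotient.orbit ω,
        f ((MulAction.selfEquivSigmaOrbits' Q X).symm ⟨ω, y⟩) = f ω.out := by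
      intro y
      have h2 : (MulAction.selfEquivSigmaOrbits' Q X).symm ⟨ω, y⟩ = (y : X) := rfl
      rw [h2]
      have h3 : (y : X) ∈ MulAction.orbit Q ω.out := by
        rw [← MulAction.orbitRel.Quotient.orbit_eq_orbit_out ω Quotient.out_eq']
        exact y.2
      obtain ⟨q, hq⟩ := h3
      rw [← hq]
      exact hinv q _
    rw [Finset.sum_congr rfl fun y _ => h1 y, Finset.sum_const, nsmul_eq_mul, Finset.card_univ,
      ← Nat.card_eq_fintype_card, MulAction.orbitRel.Quotient.orbit_eq_orbit_out ω Quotient.out_eq']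
  rw [Finset.sum_congr rfl fun ω _ => h1 ω] at hsum
  apply hN
  have h2 : N = ∑ ω : MulAction.orbitRel.Quotient Q X,
      (((Nat.card (MulAction.orbit Q ω.out) : ℕ) : ℂ) / (p : ℂ) ^ e) * f ω.out := by
    have h3 : N = ((p : ℂ) ^ e)⁻¹ * ((p : ℂ) ^ e * N) := by
      field_simp
    rw [h3, ← hsum, Finset.mul_sum]
    refine Finset.sum_congr rfl fun ω _ => ?_
    ring
  rw [h2]
  refine locI_sum fun ω _ => ?_
  by_cases h0 : f ω.out = 0
  · rw [h0, mul_zero]; exact locI_zero
  obtain ⟨m, hm⟩ := he _ h0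
  have h4 : ((Nat.card (MulAction.orbit Q ω.out) : ℕ) : ℂ) / (p : ℂ) ^ e = (m : ℂ) := by
    rw [hm]
    push_cast
    field_simp
  rw [h4]
  by_cases h5 : MemLocalIdeal M (f ω.out)
  · exact locI_mul_left (locR_natCast _) h5
  · have h6 := hcon _ h5
    rw [hm, pow_succ] at h6
    have h7 : p ∣ m := Nat.dvd_of_mul_dvd_mul_left (pow_pos (pm_prime hM).pos e) h6
    exact locI_mul_right ((locI_natCast_iff hM).2 h7) (hf _)

end orbit

variable {G : Type u} [Group G] [Finite G]
variable {M : Ideal AlgInt} {p : ℕ}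

/-- the key unit -/
theorem sum_unit (hM : IsPModular p M) {B : Set (IrrCharacter G)} (hB : IsPBlock M B)
    [Fintype (IrrCharacter G)] [DecidablePred (· ∈ B)]
    {ψ : IrrCharacter G} (hψ : ψ ∈ B) (h0 : blockHeight p B (ψ : G → ℂ) = 0)
    (P : Sylow p G) [Fintype (P : Subgroup G)] :
    ∃ n : IrrCharacter G → ℕ,
      (∀ χ ∈ B, (χ : G → ℂ) 1 = (p : ℂ) ^ (charDegree (ψ : G → ℂ)).factorization p * (n χ : ℂ)) ∧
      ¬ MemLocalIdeal M (∑ χ : IrrCharacter G, if χ ∈ B then (n χ : ℂ) *
        ((Nat.card (P : Subgroup G) : ℂ)⁻¹ * ∑ u : (P : Subgroup G), (χ : G → ℂ) (u : G)) else 0) := by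
  classical
  haveI := pm_isPrime hM
  haveI : Fact p.Prime := ⟨pm_prime hM⟩
  letI := Fintype.ofFinite G
  have hp0 : (p : ℂ) ≠ 0 := by exact_mod_cast (pm_prime hM).ne_zero
  set a := (Nat.card G).factorization p with ha
  have hψd := (height_zero_iff hM hB hψ).1 h0
  set e := (charDegree (ψ : G → ℂ)).factorization p with he
  have hdiv : ∀ χ' ∈ B, p ^ e ∣ charDegree (χ' : G → ℂ) := by
    intro χ' hχ'
    rw [(pm_prime hM).pow_dvd_iff_le_factorization (charDegree_ne_zero χ')]
    have := defect_le_degree hM hB hχ'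
    omega
  let n : IrrCharacter G → ℕ := fun χ' => charDegree (χ' : G → ℂ) / p ^ e
  have hn : ∀ χ' ∈ B, (χ' : G → ℂ) 1 = (p : ℂ) ^ e * (n χ' : ℂ) := by
    intro χ' hχ'
    rw [← charDegree_irr]
    have h2 : charDegree (χ' : G → ℂ) = p ^ e * n χ' := (Nat.mul_div_cancel' (hdiv χ' hχ')).symm
    conv_lhs => rw [h2]
    push_cast
    rfl
  refine ⟨n, hn, ?_⟩
  intro hmem0
  have hexp : ∀ g : G, (Nat.card G : ℂ) * reg p (ψ : G → ℂ) g = (p : ℂ) ^ e *
      ∑ χ' : IrrCharacter G, if χ' ∈ B then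
        (n χ' : ℂ) * Q p χ' (ψ : G → ℂ) (irr_class ψ) * (χ' : G → ℂ) g else 0 := by
    intro g
    have h1 := proj_reg hM (isUnion_of_isPBlock hB) (irr_class ψ)
    rw [proj_irr B ψ hψ] at h1
    rw [← h1, proj_eq_sum, Finset.mul_sum, Finset.mul_sum]
    refine Finset.sum_congr rfl fun χ' _ => ?_
    by_cases hχ' : χ' ∈ B
    · rw [if_pos hχ', if_pos hχ']
      have h2 : (Nat.card G : ℂ) * classInner (reg p (ψ : G → ℂ)) (χ' : G → ℂ) =
          (χ' : G → ℂ) 1 * Q p χ' (ψ : G → ℂ) (irr_class ψ) := by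
        have h3 := H18.CharBasic.irr_one_ne_zero χ'.2
        rw [Q_eq, inner_reg_symm (irr_char ψ) (irr_char χ')]
        field_simp
      rw [← mul_assoc, h2, hn χ' hχ']
      ring
    · rw [if_neg hχ', if_neg hχ', mul_zero, mul_zero]
  have hPcard : Nat.card (P : Subgroup G) = p ^ a := P.card_eq_multiplicity
  have hPC : (P : Subgroup G) ≤ Subgroup.centralizer ({1} : Set G) := by
    intro x _
    rw [Subgroup.mem_centralizer_singleton_iff]
    simp
  have hsum1 : ∑ u : (P : Subgroup G), reg p (ψ : G → ℂ) (u : G) = (ψ : G → ℂ) 1 := by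
    rw [Finset.sum_eq_single (1 : (P : Subgroup G))]
    · rw [reg_of]
      · simp
      · simpa using (pm_prime hM).one_lt.ne'
    · intro u _ hu
      apply reg_not
      obtain ⟨k, hk⟩ := IsPGroup.iff_orderOf.1 P.2 u
      rw [Subgroup.orderOf_coe, hk]
      apply dvd_pow_self
      rintro rfl
      rw [pow_zero, orderOf_eq_one_iff] at hk
      exact hu hk
    · intro hc; exact absurd (Finset.mem_univ _) hc
  have hkey : (Nat.card G : ℂ) * (ψ : G → ℂ) 1 * (Nat.card (P : Subgroup G) : ℂ)⁻¹ = (p : ℂ) ^ e *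
      ∑ χ' : IrrCharacter G, if χ' ∈ B then (n χ' : ℂ) * Q p χ' (ψ : G → ℂ) (irr_class ψ) *
        ((Nat.card (P : Subgroup G) : ℂ)⁻¹ * ∑ u : (P : Subgroup G), (χ' : G → ℂ) (u : G))
        else 0 := by
    rw [← hsum1, Finset.mul_sum]
    simp_rw [hexp]
    rw [← Finset.mul_sum, Finset.sum_comm, mul_assoc, Finset.sum_mul]
    congr 1
    refine Finset.sum_congr rfl fun χ' _ => ?_
    by_cases hχ' : χ' ∈ B
    · simp only [if_pos hχ']
      rw [← Finset.mul_sum]
      ring
    · simp only [if_neg hχ', Finset.sum_const_zero, zero_mul]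
  have hmem : MemLocalIdeal M (∑ χ' : IrrCharacter G, if χ' ∈ B then
      (n χ' : ℂ) * Q p χ' (ψ : G → ℂ) (irr_class ψ) *
        ((Nat.card (P : Subgroup G) : ℂ)⁻¹ * ∑ u : (P : Subgroup G), (χ' : G → ℂ) (u : G))
        else 0) := by
    have h1 : MemLocalIdeal M (Q p ψ (ψ : G → ℂ) (irr_class ψ) *
        ∑ χ : IrrCharacter G, if χ ∈ B then (n χ : ℂ) *
        ((Nat.card (P : Subgroup G) : ℂ)⁻¹ * ∑ u : (P : Subgroup G), (χ : G → ℂ) (u : G)) else 0) :=
      locI_mul_left (Q_memR ψ (irr_class ψ) (irr_int ψ)) hmem0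
    rw [Finset.mul_sum] at h1
    refine (locI_congr ?_).2 h1
    rw [← Finset.sum_sub_distrib]
    refine locI_sum fun χ' _ => ?_
    split_ifs with hχ'
    · have h2 := Q_congr (p := p) (isPBlock_sameBlock hB hχ' hψ) (irr_class ψ) (irr_int ψ)
      have h3 : MemLocalRing M ((Nat.card (P : Subgroup G) : ℂ)⁻¹ *
          ∑ u : (P : Subgroup G), (χ' : G → ℂ) (u : G)) := by
        have := isIntegral_mem (M := M) (isIntegral_avg (irr_char χ') hPC)
        simpa using this
      have h4 : (n χ' : ℂ) * Q p χ' (ψ : G → ℂ) (irr_class ψ) *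
          ((Nat.card (P : Subgroup G) : ℂ)⁻¹ * ∑ u : (P : Subgroup G), (χ' : G → ℂ) (u : G)) -
          Q p ψ (ψ : G → ℂ) (irr_class ψ) * ((n χ' : ℂ) *
          ((Nat.card (P : Subgroup G) : ℂ)⁻¹ * ∑ u : (P : Subgroup G), (χ' : G → ℂ) (u : G))) =
          (Q p χ' (ψ : G → ℂ) (irr_class ψ) - Q p ψ (ψ : G → ℂ) (irr_class ψ)) * ((n χ' : ℂ) *
          ((Nat.card (P : Subgroup G) : ℂ)⁻¹ * ∑ u : (P : Subgroup G), (χ' : G → ℂ) (u : G))) := by
        ring
      rw [h4]
      exact locI_mul_right h2 (locR_mul (locR_natCast _) h3)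
    · rw [mul_zero, sub_zero]
      exact locI_zero
  obtain ⟨c, hc⟩ : p ^ a ∣ Nat.card G := Nat.ordProj_dvd _ p
  have hcp : ¬ p ∣ c := by
    intro hd
    apply Nat.not_dvd_ordCompl (pm_prime hM) (Nat.card_pos (α := G)).ne'
    rw [← ha]
    conv_rhs => rw [hc]
    rw [Nat.mul_div_cancel_left _ (pow_pos (pm_prime hM).pos _)]
    exact hd
  have hnp : ¬ p ∣ n ψ := Nat.not_dvd_ordCompl (pm_prime hM) (charDegree_ne_zero ψ)
  have h5 : (Nat.card G : ℂ) * (ψ : G → ℂ) 1 * (Nat.card (P : Subgroup G) : ℂ)⁻¹ =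
      (p : ℂ) ^ e * ((c * n ψ : ℕ) : ℂ) := by
    rw [hn ψ hψ, hPcard]
    conv_lhs => rw [hc]
    push_cast
    field_simp
  rw [h5] at hkey
  have h6 := mul_left_cancel₀ (pow_ne_zero e hp0) hkey
  rw [← h6, locI_natCast_iff hM, (pm_prime hM).dvd_mul] at hmem
  exact hmem.elim hcp hnp

/-- coset sums -/
noncomputable def cosum (P : Subgroup G) [Fintype P] (w : ZG G) (x : G) : ℂ :=
  ∑ g : P, zc w (x * g)

theorem cosum_conj (P : Subgroup G) [Fintype P] (w : ZG G) (x : G) (q : P) :
    cosum P w ((q : G) * x * (q : G)⁻¹) = cosum P w x := by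
  rw [cosum, cosum, ← (MulAut.conj q).toEquiv.sum_comp]
  refine Finset.sum_congr rfl fun g _ => ?_
  have h1 : (q : G) * x * (q : G)⁻¹ * (((MulAut.conj q).toEquiv g : P) : G) =
      (q : G) * (x * g) * (q : G)⁻¹ := by
    have : (((MulAut.conj q).toEquiv g : P) : G) = (q : G) * g * (q : G)⁻¹ := rfl
    rw [this]
    group
  rw [h1]
  exact zc_class w _ q

theorem cosum_eq [Fintype G] (P : Subgroup G) [Fintype P] [DecidablePred (· ∈ P)] (w : ZG G) (x : G) :
    cosum P w x = ∑ y : G, if x⁻¹ * y ∈ P then zc w y else 0 := by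
  classical
  rw [← Equiv.sum_comp (Equiv.mulLeft x) (fun y => if x⁻¹ * y ∈ P then zc w y else 0), cosum]
  simp only [Equiv.coe_mulLeft, inv_mul_cancel_left]
  rw [← Finset.sum_filter]
  exact (Finset.sum_subtype (p := fun g => g ∈ P) (Finset.univ.filter (· ∈ P)) (by simp)
    (fun g => zc w (x * g))).symm

theorem le_centralizer_of_cosum (hM : IsPModular p M) {B : Set (IrrCharacter G)} (hB : IsPBlock M B)
    {k x : G} (P : Subgroup G) [Fintype P]
    (hx : ¬ MemLocalIdeal M (cosum P (cls k * eB B) x)) {Q : Subgroup G} (hQ : IsPGroup p Q)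
    (hQP : Q ≤ P) (hQx : Q ≤ P.map (MulAut.conj x).toMonoidHom) :
    ∃ y : G, IsConj k y ∧ Q ≤ Subgroup.centralizer ({y} : Set G) := by
  classical
  haveI := pm_isPrime hM
  letI := Fintype.ofFinite G
  letI : MulAction Q G := MulAction.compHom G (MulAut.conj.comp Q.subtype)
  have hsm : ∀ (q : Q) (x : G), q • x = (q : G) * x * (q : G)⁻¹ := fun q x => rfl
  have hw : cls k * eB B ∈ zr M G := mul_mem (cls_mem k) (eB_mem hB)
  let f : G → ℂ := fun y => if x⁻¹ * y ∈ P then zc (cls k * eB B) y else 0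
  have hf : ∀ y, MemLocalRing M (f y) := by
    intro y
    simp only [f]
    split_ifs
    · exact hw y
    · exact locR_zero
  have hinv : ∀ (q : Q) (y : G), f (q • y) = f y := by
    intro q y
    simp only [f]
    rw [hsm]
    have h1 : x⁻¹ * ((q : G) * y * (q : G)⁻¹) ∈ P ↔ x⁻¹ * y ∈ P := by
      have h2 : x⁻¹ * ((q : G) * y * (q : G)⁻¹) = (x⁻¹ * (q : G) * x) * (x⁻¹ * y) * (q : G)⁻¹ := by
        group
      have h3 : x⁻¹ * (q : G) * x ∈ P := mem_map_conj.1 (hQx q.2)
      rw [h2, P.mul_mem_cancel_right (P.inv_mem (hQP q.2)), P.mul_mem_cancel_left h3]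
    rw [if_congr h1 rfl rfl, zc_class (cls k * eB B) y (q : G)]
  have h1 := sum_fixed_congr hM hQ f hf hinv
  rw [cosum_eq] at hx
  have h2 : ¬ MemLocalIdeal M (∑ x : G, if ∀ q : Q, q • x = x then f x else 0) :=
    fun h3 => hx ((locI_congr h1).2 h3)
  obtain ⟨z, hz⟩ : ∃ x : G, ¬ MemLocalIdeal M (if ∀ q : Q, q • x = x then f x else 0) := by
    by_contra! hc
    exact h2 (locI_sum fun x _ => hc x)
  split_ifs at hz with hfix
  · have h3 : ¬ MemLocalIdeal M (zc (cls k * eB B) z) := by
      intro h4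
      apply hz
      simp only [f]
      split_ifs
      · exact h4
      · exact locI_zero
    have hQz : Q ≤ Subgroup.centralizer ({z} : Set G) := by
      intro q hq
      rw [Subgroup.mem_centralizer_singleton_iff]
      have := hfix ⟨q, hq⟩
      rw [hsm] at this
      exact mul_inv_eq_iff_eq_mul.1 this
    obtain ⟨y, hy1, hy2, _⟩ := exists_centralized hM (eB_mem hB) h3 hQ hQz
    exact ⟨y, hy1, hy2⟩
  · exact absurd locI_zero hz

theorem card_le_of_le_centralizer [Fact p.Prime] {k y : G} (hky : IsConj k y) {Q : Subgroup G}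
    (hQ : IsPGroup p Q) (hQy : Q ≤ Subgroup.centralizer ({y} : Set G)) :
    Nat.card Q ≤ p ^ (Nat.card (Subgroup.centralizer ({k} : Set G))).factorization p := by
  obtain ⟨P⟩ : Nonempty (Sylow p (Subgroup.centralizer ({k} : Set G))) := inferInstance
  obtain ⟨c, hc⟩ := exists_conj_le hky P hQ hQy
  have h1 := Subgroup.card_le_of_le hc
  rwa [card_map_conj, card_sylC_eq] at h1

theorem core (hM : IsPModular p M) {B : Set (IrrCharacter G)} (hB : IsPBlock M B) {k : G}
    (hk : IsDefectClass M B k) (P : Sylow p G) :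
    ∃ y : G, IsConj k y ∧
      Nat.card ((P : Subgroup G) ⊓ Subgroup.centralizer ({y} : Set G) : Subgroup G) =
        p ^ (Nat.card (Subgroup.centralizer ({k} : Set G))).factorization p ∧
      (P : Subgroup G) ⊓ (P : Subgroup G).map (MulAut.conj y⁻¹).toMonoidHom =
        (P : Subgroup G) ⊓ Subgroup.centralizer ({y} : Set G) := by
  classical
  haveI := pm_isPrime hM
  haveI : Fact p.Prime := ⟨pm_prime hM⟩
  letI := Fintype.ofFinite G
  letI := Fintype.ofFinite (IrrCharacter G)
  letI := Fintype.ofFinite (P : Subgroup G)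
  have hp0 : (p : ℂ) ≠ 0 := by exact_mod_cast (pm_prime hM).ne_zero
  obtain ⟨ψ, hψ, h0⟩ := exists_height_zero hM hB
  obtain ⟨n, hn, hunit⟩ := sum_unit hM hB hψ h0 P
  have hψd := (height_zero_iff hM hB hψ).1 h0
  rw [blockDefect_eq hM hB hk] at hψd
  set d := (Nat.card (Subgroup.centralizer ({k} : Set G))).factorization p with hd
  set e := (charDegree (ψ : G → ℂ)).factorization p with he
  set a := (Nat.card G).factorization p with ha
  have hPcard : Nat.card (P : Subgroup G) = p ^ a := P.card_eq_multiplicity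
  have hPC : (P : Subgroup G) ≤ Subgroup.centralizer ({1} : Set G) := by
    intro x _
    rw [Subgroup.mem_centralizer_singleton_iff]
    simp
  -- the Fourier computation
  let av : IrrCharacter G → ℂ := fun χ =>
    (Nat.card (P : Subgroup G) : ℂ)⁻¹ * ∑ u : (P : Subgroup G), (χ : G → ℂ) (u : G)
  have hav : ∀ χ, MemLocalRing M (av χ) := by
    intro χ
    have := isIntegral_mem (M := M) (isIntegral_avg (irr_char χ) hPC)
    simp only [mul_one] at this
    exact this
  have hconj : ∀ χ : IrrCharacter G, ∑ u : (P : Subgroup G), conj ((χ : G → ℂ) (u : G)) =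
      ∑ u : (P : Subgroup G), (χ : G → ℂ) (u : G) := by
    intro χ
    rw [← Equiv.sum_comp (Equiv.inv (P : Subgroup G)) (fun u => (χ : G → ℂ) (u : G))]
    refine Finset.sum_congr rfl fun u _ => ?_
    simp only [Equiv.inv_apply, Subgroup.coe_inv]
    rw [H18.CharBasic.char_inv (irr_char χ)]
  obtain ⟨c, hc⟩ : p ^ a ∣ Nat.card G := Nat.ordProj_dvd _ p
  have hcp : ¬ p ∣ c := by
    intro hd
    apply Nat.not_dvd_ordCompl (pm_prime hM) (Nat.card_pos (α := G)).ne'
    rw [← ha]
    conv_rhs => rw [hc]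
    rw [Nat.mul_div_cancel_left _ (pow_pos (pm_prime hM).pos _)]
    exact hd
  have hc0 : (c : ℂ) ≠ 0 := by
    intro h
    apply hcp
    have : c = 0 := by exact_mod_cast h
    rw [this]; exact dvd_zero p
  have hN : ∑ g : (P : Subgroup G), zc (cls k * (cls k * eB B)) (g : G) = (p : ℂ) ^ e *
      ((c : ℂ)⁻¹ * ∑ χ : IrrCharacter G, if χ ∈ B then
        centralChar (χ : G → ℂ) k ^ 2 * ((n χ : ℂ) * av χ) else 0) := by
    simp_rw [PCDef.zc_fourier]
    rw [← Finset.mul_sum, Finset.sum_comm]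
    have h1 : ∀ χ : IrrCharacter G, ∑ g : (P : Subgroup G),
        omega χ (cls k * (cls k * eB B)) * ((χ : G → ℂ) 1 * conj ((χ : G → ℂ) (g : G))) =
        (Nat.card (P : Subgroup G) : ℂ) * ((p : ℂ) ^ e * (if χ ∈ B then
        centralChar (χ : G → ℂ) k ^ 2 * ((n χ : ℂ) * av χ) else 0)) := by
      intro χ
      rw [← Finset.mul_sum, ← Finset.mul_sum, hconj, map_mul, map_mul, omega_cls]
      have hP0 : (Nat.card (P : Subgroup G) : ℂ) ≠ 0 := by
        exact_mod_cast (Nat.card_pos (α := (P : Subgroup G))).ne'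
      split_ifs with hχ
      · rw [omega_eB_mem hχ, hn χ hχ]
        simp only [av]
        field_simp
      · rw [omega_eB_notMem hχ]; ring
    rw [Finset.sum_congr rfl fun χ _ => h1 χ, ← Finset.mul_sum, ← Finset.mul_sum, hPcard]
    conv_lhs => rw [hc]
    push_cast
    field_simp
  have hNu : ¬ MemLocalIdeal M ((c : ℂ)⁻¹ * ∑ χ : IrrCharacter G, if χ ∈ B then
        centralChar (χ : G → ℂ) k ^ 2 * ((n χ : ℂ) * av χ) else 0) := by
    have hcR : MemLocalRing M (c : ℂ)⁻¹ := locR_natCast_inv hM hcp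
    have hcI : ¬ MemLocalIdeal M (c : ℂ)⁻¹ :=
      not_locI_inv (locR_natCast c) (fun h => hcp ((locI_natCast_iff hM).1 h))
    have hterm : ∀ χ : IrrCharacter G, MemLocalRing M (if χ ∈ B then (n χ : ℂ) * av χ else 0) := by
      intro χ
      split_ifs
      · exact locR_mul (locR_natCast _) (hav χ)
      · exact locR_zero
    have h1 : MemLocalIdeal M ((∑ χ : IrrCharacter G, if χ ∈ B then
        centralChar (χ : G → ℂ) k ^ 2 * ((n χ : ℂ) * av χ) else 0) -
        centralChar (ψ : G → ℂ) k ^ 2 * ∑ χ : IrrCharacter G, if χ ∈ B then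
        ((n χ : ℂ) * av χ) else 0) := by
      rw [Finset.mul_sum, ← Finset.sum_sub_distrib]
      refine locI_sum fun χ _ => ?_
      split_ifs with hχ
      · have h2 : MemLocalIdeal M (centralChar (χ : G → ℂ) k - centralChar (ψ : G → ℂ) k) :=
          isPBlock_sameBlock hB hχ hψ k
        have h3 := locI_pow_congr (centralChar_memR χ k) (centralChar_memR ψ k) h2 2
        rw [← sub_mul]
        exact locI_mul_right h3 (locR_mul (locR_natCast _) (hav χ))
      · rw [mul_zero, sub_zero]; exact locI_zero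
    have h2 : MemLocalRing M (centralChar (ψ : G → ℂ) k ^ 2) := locR_pow (centralChar_memR ψ k) 2
    have h3 : ¬ MemLocalIdeal M (centralChar (ψ : G → ℂ) k ^ 2) :=
      not_locI_pow (centralChar_memR ψ k) (hk.2.2 ψ hψ) 2
    have h4 : ¬ MemLocalIdeal M (centralChar (ψ : G → ℂ) k ^ 2 * ∑ χ : IrrCharacter G, if χ ∈ B then
        ((n χ : ℂ) * av χ) else 0) :=
      not_locI_mul h2 (locR_sum fun χ _ => hterm χ) h3 hunit
    have h5 : ¬ MemLocalIdeal M (∑ χ : IrrCharacter G, if χ ∈ B then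
        centralChar (χ : G → ℂ) k ^ 2 * ((n χ : ℂ) * av χ) else 0) := fun h => h4 ((locI_congr h1).1 h)
    refine not_locI_mul hcR ?_ hcI h5
    refine locR_sum fun χ _ => ?_
    split_ifs
    · exact locR_mul (locR_pow (centralChar_memR χ k) 2) (locR_mul (locR_natCast _) (hav χ))
    · exact locR_zero
  -- the double counting
  letI : MulAction (P : Subgroup G) G :=
    MulAction.compHom G (MulAut.conj.comp (P : Subgroup G).subtype)
  have hsm : ∀ (q : (P : Subgroup G)) (x : G), q • x = (q : G) * x * (q : G)⁻¹ := fun q x => rfl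
  let f : G → ℂ := fun y => zc (cls k) y * cosum (P : Subgroup G) (cls k * eB B) y⁻¹
  have hw : cls k * eB B ∈ zr M G := mul_mem (cls_mem k) (eB_mem hB)
  have hf : ∀ y, MemLocalRing M (f y) := fun y =>
    locR_mul (cls_mem k y) (locR_sum fun g _ => hw _)
  have hinv : ∀ (q : (P : Subgroup G)) (y : G), f (q • y) = f y := by
    intro q y
    simp only [f]
    rw [hsm]
    congr 1
    · exact zc_class (cls k) y q
    · have h1 : ((q : G) * y * (q : G)⁻¹)⁻¹ = (q : G) * y⁻¹ * (q : G)⁻¹ := by group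
      rw [h1, cosum_conj]
  have hsumf : ∑ y : G, f y = ∑ g : (P : Subgroup G), zc (cls k * (cls k * eB B)) (g : G) := by
    simp_rw [zc_mul (cls k) (cls k * eB B)]
    rw [Finset.sum_comm]
    refine Finset.sum_congr rfl fun y _ => ?_
    simp only [f, cosum]
    rw [Finset.mul_sum]
  have hstab : ∀ y : G, Nat.card (MulAction.orbit (P : Subgroup G) y) *
      Nat.card ((P : Subgroup G) ⊓ Subgroup.centralizer ({y} : Set G) : Subgroup G) = p ^ a := by
    intro y
    have h1 := MulAction.card_orbit_mul_card_stabilizer_eq_card_group (P : Subgroup G) y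
    rw [← Nat.card_eq_fintype_card, ← Nat.card_eq_fintype_card, ← Nat.card_eq_fintype_card,
      hPcard] at h1
    rw [← h1]
    congr 1
    have h2 : ((MulAction.stabilizer (P : Subgroup G) y).map (P : Subgroup G).subtype) =
        (P : Subgroup G) ⊓ Subgroup.centralizer ({y} : Set G) := by
      ext z
      constructor
      · rintro ⟨q, hq, rfl⟩
        refine ⟨q.2, ?_⟩
        have h3 : q • y = y := hq
        rw [hsm] at h3
        exact Subgroup.mem_centralizer_singleton_iff.2 (mul_inv_eq_iff_eq_mul.1 h3)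
      · rintro ⟨h3, h4⟩
        refine ⟨⟨z, h3⟩, ?_, rfl⟩
        change (⟨z, h3⟩ : (P : Subgroup G)) • y = y
        rw [hsm]
        have h5 := Subgroup.mem_centralizer_singleton_iff.1 h4
        exact mul_inv_eq_iff_eq_mul.2 h5
    rw [← h2, Subgroup.card_map_of_injective (Subgroup.subtype_injective _)]
  have hed : e + d = a := hψd
  have hdiv : ∀ y : G, f y ≠ 0 → p ^ e ∣ Nat.card (MulAction.orbit (P : Subgroup G) y) := by
    intro y hy
    have hky : IsConj k y := by
      by_contra hno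
      apply hy
      simp only [f]
      rw [zc_cls_not hno, zero_mul]
    have h1 := hstab y
    have h2 : Nat.card ((P : Subgroup G) ⊓ Subgroup.centralizer ({y} : Set G) : Subgroup G) ≤ p ^ d :=
      card_le_of_le_centralizer hky (P.2.to_le inf_le_left) inf_le_right
    obtain ⟨i, hi, hi'⟩ := (Nat.dvd_prime_pow (pm_prime hM)).1 (Dvd.intro _ h1)
    obtain ⟨j, hj, hj'⟩ := (Nat.dvd_prime_pow (pm_prime hM)).1 (Dvd.intro_left _ h1)
    rw [hj'] at h2
    have h3 : j ≤ d := (Nat.pow_le_pow_iff_right (pm_prime hM).one_lt).1 h2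
    rw [hi', hj', ← pow_add] at h1
    have h4 := Nat.pow_right_injective (pm_prime hM).two_le h1
    rw [hi']
    exact pow_dvd_pow p (by omega)
  obtain ⟨y, hy1, hy2⟩ := exists_orbit hM f hf hinv e hdiv hNu (by rw [hsumf, hN])
  have hky : IsConj k y := by
    by_contra hno
    apply hy1
    simp only [f]
    rw [zc_cls_not hno, zero_mul]
    exact locI_zero
  have hy3 : ¬ MemLocalIdeal M (cosum (P : Subgroup G) (cls k * eB B) y⁻¹) := by
    intro h
    apply hy1
    exact locI_mul_left (cls_mem k y) h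
  have hcard : Nat.card ((P : Subgroup G) ⊓ Subgroup.centralizer ({y} : Set G) : Subgroup G) =
      p ^ d := by
    have h1 := hstab y
    have h2 : Nat.card ((P : Subgroup G) ⊓ Subgroup.centralizer ({y} : Set G) : Subgroup G) ≤ p ^ d :=
      card_le_of_le_centralizer hky (P.2.to_le inf_le_left) inf_le_right
    obtain ⟨i, hi, hi'⟩ := (Nat.dvd_prime_pow (pm_prime hM)).1 (Dvd.intro _ h1)
    obtain ⟨j, hj, hj'⟩ := (Nat.dvd_prime_pow (pm_prime hM)).1 (Dvd.intro_left _ h1)
    rw [hj'] at h2 ⊢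
    have h3 : j ≤ d := (Nat.pow_le_pow_iff_right (pm_prime hM).one_lt).1 h2
    rw [hi', hj', ← pow_add] at h1
    have h4 := Nat.pow_right_injective (pm_prime hM).two_le h1
    rw [hi'] at hy2
    have h5 : i < e + 1 := by
      by_contra h6
      exact hy2 (pow_dvd_pow p (by omega))
    congr 1
    omega
  refine ⟨y, hky, hcard, ?_⟩
  symm
  apply Subgroup.eq_of_le_of_card_ge
  · intro z hz
    refine ⟨hz.1, mem_map_conj.2 ?_⟩
    have h1 := Subgroup.mem_centralizer_singleton_iff.1 hz.2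
    have h2 : y⁻¹⁻¹ * z * y⁻¹ = z := by
      rw [inv_inv, ← h1]; group
    rw [h2]
    exact hz.1
  · rw [hcard]
    obtain ⟨y', hy', hle⟩ := le_centralizer_of_cosum hM hB (P : Subgroup G) hy3
      (Q := (P : Subgroup G) ⊓ (P : Subgroup G).map (MulAut.conj y⁻¹).toMonoidHom)
      (P.2.to_le inf_le_left) inf_le_left inf_le_right
    exact card_le_of_le_centralizer hy' (P.2.to_le inf_le_left) hle

theorem exists_norm {G : Type u} [Group G] [Finite G] {p : ℕ} [Fact p.Prime] {T D : Subgroup G}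
    (hT : IsPGroup p T) (hDT : D ≤ T) (hne : D ≠ T) :
    ∃ g ∈ T, g ∉ D ∧ g ∈ Subgroup.normalizer (D : Set G) := by
  haveI : Group.IsNilpotent T := hT.isNilpotent
  have h1 : D.subgroupOf T < ⊤ := by
    rw [lt_top_iff_ne_top]
    intro h
    exact hne (le_antisymm hDT (Subgroup.subgroupOf_eq_top.1 h))
  have h2 := Group.normalizerCondition_of_isNilpotent (G := T) (D.subgroupOf T) h1
  obtain ⟨g, hg1, hg2⟩ := SetLike.exists_of_lt h2
  refine ⟨g, g.2, fun h => hg2 h, ?_⟩
  rw [Subgroup.mem_normalizer_iff] at hg1 ⊢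
  intro z
  constructor
  · intro hz
    exact (hg1 ⟨z, hDT hz⟩).1 hz
  · intro hz
    have h3 : z ∈ T := by
      have h4 := hDT hz
      have h5 : z = (g : G)⁻¹ * ((g : G) * z * (g : G)⁻¹) * (g : G) := by group
      rw [h5]
      exact T.mul_mem (T.mul_mem (T.inv_mem g.2) h4) g.2
    exact (hg1 ⟨z, h3⟩).2 hz

/-- S0956 -/
theorem main (hM : IsPModular p M) {B : Set (IrrCharacter G)} (hB : IsPBlock M B) {D : Subgroup G}
    (hD : IsDefectGroup p M B D) (P : Sylow p G) (hDP : D ≤ P) :
    ∃ x : G, ¬ p ∣ orderOf x ∧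
      (∃ S : Sylow p (Subgroup.centralizer ({x} : Set G)),
        (S : Subgroup (Subgroup.centralizer ({x} : Set G))).map
          (Subgroup.centralizer ({x} : Set G)).subtype = D) ∧
      (P : Subgroup G) ⊓ (P : Subgroup G).map (MulAut.conj x).toMonoidHom = D := by
  classical
  haveI := pm_isPrime hM
  haveI : Fact p.Prime := ⟨pm_prime hM⟩
  have hfirst := First.exists_first hM hB hD
  have hnorm := First.normal_subgroupOf_normalizer D
  set N := Subgroup.normalizer (D : Set G) with hN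
  obtain ⟨b, hb, ⟨k, hk, S₀, hS₀⟩, _⟩ := hfirst
  have hpg : IsPGroup p ((P : Subgroup G).subgroupOf N) :=
    P.2.comap_of_injective _ (Subgroup.subtype_injective _)
  obtain ⟨P₀, hP₀⟩ := hpg.exists_le_sylow
  obtain ⟨y, hky, hcard, hint⟩ := core hM hb hk P₀
  have hky' : IsDefectClass M b y := (isDefectClass_congr hky).1 hk
  -- the intersection is the defect group
  have hcen : Nat.card (Subgroup.centralizer ({k} : Set N)) =
      Nat.card (Subgroup.centralizer ({y} : Set N)) := by
    have h1 := Subgroup.card_mul_index (Subgroup.centralizer ({k} : Set N))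
    have h2 := Subgroup.card_mul_index (Subgroup.centralizer ({y} : Set N))
    have h3 : (Subgroup.centralizer ({k} : Set N)).index =
        (Subgroup.centralizer ({y} : Set N)).index := by
      rw [← card_conj_eq, ← card_conj_eq]
      exact Nat.card_congr (Equiv.subtypeEquivRight fun z =>
        ⟨fun h => hky.symm.trans h, fun h => hky.trans h⟩)
    rw [h3, ← h2] at h1
    exact Nat.eq_of_mul_eq_mul_right (Nat.pos_of_ne_zero Subgroup.index_ne_zero_of_finite) h1
  have hdef : (P₀ : Subgroup N) ⊓ Subgroup.centralizer ({y} : Set N) = D.subgroupOf N := by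
    apply First.defectGroup_unique_of_normal hM hb ⟨k, hk, S₀, hS₀⟩
    refine ⟨y, hky', Sylow.ofCard (((P₀ : Subgroup N) ⊓
      Subgroup.centralizer ({y} : Set N)).subgroupOf (Subgroup.centralizer ({y} : Set N))) ?_, ?_⟩
    · rw [← hcen, ← hcard]
      exact Nat.card_congr (Subgroup.subgroupOfEquivOfLe inf_le_right).toEquiv
    · change _ = (((P₀ : Subgroup N) ⊓ Subgroup.centralizer ({y} : Set N)).subgroupOf
        (Subgroup.centralizer ({y} : Set N))).map (Subgroup.centralizer ({y} : Set N)).subtype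
      rw [Subgroup.subgroupOf_map_subtype, inf_assoc, inf_idem]
  have hreg : ¬ p ∣ orderOf (y : N) := by
    intro h
    apply hky'.2.1
    rw [blockCoeff_eq_zero hM (isUnion_of_isPBlock hb) h]
    exact locI_zero
  have hDN : D ≤ N := Subgroup.le_normalizer
  have hpD : IsPGroup p D := isPGroup_of_isDefectGroup hD
  have hyD : ∀ z : G, z ∈ D ↔ (y : G)⁻¹ * z * (y : G) ∈ D := by
    intro z
    have := Subgroup.mem_normalizer_iff.1 (N.inv_mem y.2) z
    rw [inv_inv] at this
    exact this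
  have hDC : D ≤ Subgroup.centralizer ({(y : G)⁻¹} : Set G) := by
    intro z hz
    have h1 : (⟨z, hDN hz⟩ : N) ∈ D.subgroupOf N := hz
    rw [← hdef] at h1
    have h2 := Subgroup.mem_centralizer_singleton_iff.1 h1.2
    rw [Subgroup.mem_centralizer_singleton_iff]
    have h3 : z * (y : G) = (y : G) * z := congrArg Subtype.val h2
    calc z * (y : G)⁻¹ = (y : G)⁻¹ * ((y : G) * z) * (y : G)⁻¹ := by group
      _ = (y : G)⁻¹ * (z * (y : G)) * (y : G)⁻¹ := by rw [h3]
      _ = _ := by group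
  refine ⟨(y : G)⁻¹, ?_, ?_, ?_⟩
  · rw [orderOf_inv, Subgroup.orderOf_coe]
    exact hreg
  · obtain ⟨T, hT⟩ := (hpD.comap_of_injective
      (Subgroup.centralizer ({(y : G)⁻¹} : Set G)).subtype
      (Subgroup.subtype_injective _)).exists_le_sylow
    refine ⟨T, ?_⟩
    by_contra hne
    have hDT : D ≤ (T : Subgroup _).map (Subgroup.centralizer ({(y : G)⁻¹} : Set G)).subtype := by
      intro z hz
      exact ⟨⟨z, hDC hz⟩, hT hz, rfl⟩
    have hpT : IsPGroup p ((T : Subgroup _).map
      (Subgroup.centralizer ({(y : G)⁻¹} : Set G)).subtype) := T.2.map _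
    obtain ⟨g, hg1, hg2, hg3⟩ := exists_norm hpT hDT (fun h => hne h.symm)
    -- the subgroup `N ⊓ T` is a `p`-subgroup of `C_N(y)` larger than `D`
    set E : Subgroup N := ((T : Subgroup _).map
      (Subgroup.centralizer ({(y : G)⁻¹} : Set G)).subtype).subgroupOf N with hE
    have hE1 : IsPGroup p E := hpT.comap_of_injective _ (Subgroup.subtype_injective _)
    have hE2 : E ≤ Subgroup.centralizer ({y} : Set N) := by
      intro z hz
      obtain ⟨t, _, ht⟩ := hz
      rw [Subgroup.mem_centralizer_singleton_iff]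
      apply Subtype.ext
      have h1 := Subgroup.mem_centralizer_singleton_iff.1 t.2
      have h2 : (z : G) * (y : G)⁻¹ = (y : G)⁻¹ * (z : G) := by
        have : (t : G) = (z : G) := ht
        rw [← this]; exact h1
      change (z : G) * (y : G) = (y : G) * (z : G)
      calc (z : G) * (y : G) = (y : G) * ((y : G)⁻¹ * (z : G)) * (y : G) := by group
        _ = (y : G) * ((z : G) * (y : G)⁻¹) * (y : G) := by rw [h2]
        _ = _ := by group
    have h3 := card_le_of_le_centralizer hky hE1 hE2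
    rw [← hcard, hdef] at h3
    have h4 : D.subgroupOf N ≤ E := fun z hz => hDT hz
    have h5 : D.subgroupOf N = E := Subgroup.eq_of_le_of_card_ge h4 h3
    have h6 : (⟨g, hg3⟩ : N) ∈ E := hg1
    rw [← h5] at h6
    exact hg2 h6
  · by_contra hne
    have h1 : D ≤ (P : Subgroup G) ⊓ (P : Subgroup G).map (MulAut.conj (y : G)⁻¹).toMonoidHom := by
      intro z hz
      refine ⟨hDP hz, mem_map_conj.2 ?_⟩
      apply hDP
      have := Subgroup.mem_normalizer_iff.1 y.2 z
      rw [inv_inv]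
      exact this.1 hz
    have h2 : IsPGroup p ((P : Subgroup G) ⊓
        (P : Subgroup G).map (MulAut.conj (y : G)⁻¹).toMonoidHom : Subgroup G) :=
      P.2.to_le inf_le_left
    obtain ⟨g, hg1, hg2, hg3⟩ := exists_norm h2 h1 (fun h => hne h.symm)
    apply hg2
    have h3 : (⟨g, hg3⟩ : N) ∈ (P₀ : Subgroup N) := hP₀ hg1.1
    have h4 : (⟨g, hg3⟩ : N) ∈ (P₀ : Subgroup N).map (MulAut.conj y⁻¹).toMonoidHom := by
      rw [mem_map_conj]
      apply hP₀
      have h := (mem_map_conj (H := (P : Subgroup G)) (x := (y : G)⁻¹) (y := g)).1 hg1.2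
      exact h
    have h5 : (⟨g, hg3⟩ : N) ∈ (P₀ : Subgroup N) ⊓
        (P₀ : Subgroup N).map (MulAut.conj y⁻¹).toMonoidHom := ⟨h3, h4⟩
    rw [hint, hdef] at h5
    exact h5

end H20.Green
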