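import Mathlib
import Cfsg.Agent.Lib.H20.Cor7
import Cfsg.Agent.Lib.H20.PC
import Cfsg.Agent.Lib.H80.GO
import Cfsg.Agent.Lib.H80.GP

/-!
# Blocks with normal defect groups and quotients by normal `p`-subgroups
-/

set_option autoImplicit false
set_option linter.unusedSectionVars false
set_option linter.unusedVariables false
set_option linter.style.haveILetI false

open Module
open Cfsg H20.Loc H20.GA H20.Blk H20.Orth H20.Defect H80.GA H80.GB H80.BR1 H84.RG H84.Star H18.CharBasic H18.CharOrtho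
open H80.GC H80.GD H80.GE H80.GF H80.GH H80.GJ H80.BR2 H80.FS3
open scoped ComplexConjugate

universe u

namespace H20.NDef

section pj

variable {k : Type*} [Field k] {G : Type u} [Group G] (N : Subgroup G) [N.Normal]

/-- the projection on group algebras -/
noncomputable def pj (k : Type*) [Field k] : MonoidAlgebra k G →ₐ[k] MonoidAlgebra k (G ⧸ N) :=
  MonoidAlgebra.mapDomainAlgHom k k (QuotientGroup.mk' N)

theorem coeff_pj [Fintype G] [DecidableEq (G ⧸ N)] (a : MonoidAlgebra k G) (q : G ⧸ N) :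
    (pj N k a).coeff q = ∑ g : G, if (g : G ⧸ N) = q then a.coeff g else 0 := by
  change (Finsupp.mapDomain (QuotientGroup.mk' N) a.coeff) q = _
  rw [Finsupp.mapDomain, Finsupp.sum_apply, Finsupp.sum_fintype]
  · refine Finset.sum_congr rfl fun g _ => ?_
    rw [Finsupp.single_apply]
    rfl
  · intro g
    simp

theorem pj_single (x : G) (c : k) : pj N k (MonoidAlgebra.single x c) = MonoidAlgebra.single (x : G ⧸ N) c := by
  unfold pj
  rw [MonoidAlgebra.mapDomainAlgHom_apply, MonoidAlgebra.mapDomain_single]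
  rfl

variable [Finite G]

theorem pj_cj (g : G) (a : MonoidAlgebra k G) : pj N k (cj g a) = cj (g : G ⧸ N) (pj N k a) := by
  classical
  letI := Fintype.ofFinite G
  apply H80.GA.ext'
  intro q
  rw [coeff_cj, coeff_pj, coeff_pj]
  refine Fintype.sum_equiv (MulAut.conj g⁻¹).toEquiv _ _ fun h => ?_
  have h1 : (MulAut.conj g⁻¹).toEquiv h = g⁻¹ * h * g := by simp
  rw [h1, coeff_cj]
  have h2 : ((h : G ⧸ N) = q) ↔ (((g⁻¹ * h * g : G) : G ⧸ N) = (g : G ⧸ N)⁻¹ * q * (g : G ⧸ N)) := by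
    rw [QuotientGroup.mk_mul, QuotientGroup.mk_mul, QuotientGroup.mk_inv]
    constructor
    · rintro rfl; rfl
    · intro h; exact mul_left_cancel (mul_right_cancel h)
  simp only [h2]

theorem pj_mem_Sp {K : Subgroup G} {a : MonoidAlgebra k G} (ha : a ∈ Sp k K) :
    pj N k a ∈ Sp k (K.map (QuotientGroup.mk' N)) := by
  classical
  letI := Fintype.ofFinite G
  intro q hq
  rw [coeff_pj] at hq
  obtain ⟨g, _, hg⟩ := Finset.exists_ne_zero_of_sum_ne_zero hq
  by_cases h : (g : G ⧸ N) = q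
  · rw [if_pos h] at hg
    exact ⟨g, ha g hg, h⟩
  · rw [if_neg h] at hg
    exact absurd rfl hg

theorem pj_mem_Fx {K : Subgroup G} {a : MonoidAlgebra k G} (ha : a ∈ Fx k K) :
    pj N k a ∈ Fx k (K.map (QuotientGroup.mk' N)) := by
  rintro _ ⟨g, hg, rfl⟩
  have h1 := pj_cj N g a
  rw [ha g hg] at h1
  exact h1.symm

theorem pj_mem_Z {K : Subgroup G} {a : MonoidAlgebra k G} (ha : a ∈ Z k K) :
    pj N k a ∈ Z k (K.map (QuotientGroup.mk' N)) := ⟨pj_mem_Fx N ha.1, pj_mem_Sp N ha.2⟩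

variable {p : ℕ} [hp : Fact p.Prime]

/-- regular elements centralizing `N` are determined by their image -/
theorem eq_of_mk (hN : IsPGroup p N) {x y : G} (hx : ¬ p ∣ orderOf x) (hy : ¬ p ∣ orderOf y)
    (hxN : x ∈ Subgroup.centralizer (N : Set G)) (h : (x : G ⧸ N) = (y : G ⧸ N)) : x = y := by
  have h1 : x⁻¹ * y ∈ N := QuotientGroup.eq.1 h
  have h2 : Commute (x⁻¹ * y) x := Subgroup.mem_centralizer_iff.1 hxN _ h1
  have h3 : Commute x⁻¹ y := by
    have h4 : Commute (x * (x⁻¹ * y)) x := (Commute.refl x).mul_left h2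
    rw [mul_inv_cancel_left] at h4
    exact h4.symm.inv_left
  have h5 : ¬ p ∣ orderOf (x⁻¹ * y) :=
    H20.PC.not_dvd_orderOf_mul Fact.out h3 (by rwa [orderOf_inv]) hy
  have h6 : ∃ k : ℕ, orderOf (x⁻¹ * y) = p ^ k := by
    obtain ⟨k, hk⟩ := IsPGroup.iff_orderOf.1 hN ⟨_, h1⟩
    exact ⟨k, by rw [← hk]; exact (Subgroup.orderOf_mk _ h1).symm⟩
  have h7 := H20.PC.eq_one_of_regular h5 h6
  exact (inv_mul_eq_one.1 h7)

/-- lifting of elements of the quotient algebra supported on regular elements -/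
noncomputable def lf (p : ℕ) (w : MonoidAlgebra k (G ⧸ N)) : MonoidAlgebra k G :=
  MonoidAlgebra.ofCoeff (Finsupp.equivFunOnFinite.symm fun x =>
    if p ∣ orderOf x then 0 else w.coeff (x : G ⧸ N))

theorem coeff_lf (w : MonoidAlgebra k (G ⧸ N)) (x : G) :
    (lf N p w).coeff x = if p ∣ orderOf x then 0 else w.coeff (x : G ⧸ N) := rfl

theorem lf_mem {K : Subgroup G} (hNK : N ≤ K) {w : MonoidAlgebra k (G ⧸ N)}
    (hw : w ∈ Z k (K.map (QuotientGroup.mk' N))) : lf N p w ∈ Z k K := by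
  classical
  constructor
  · show lf N p w ∈ Fx k K
    rw [mem_Fx']
    intro h hh x
    rw [coeff_lf, coeff_lf, orderOf_conj]
    split_ifs
    · rfl
    · have h1 := mem_Fx'.1 hw.1 (h : G ⧸ N) ⟨h, hh, rfl⟩ (x : G ⧸ N)
      rw [← h1]
      simp
  · intro x hx
    rw [coeff_lf] at hx
    split_ifs at hx with h
    · exact absurd rfl hx
    · obtain ⟨y, hy, hyx⟩ := hw.2 _ hx
      have h1 : y⁻¹ * x ∈ N := QuotientGroup.eq.1 hyx
      have h2 : x = y * (y⁻¹ * x) := by simp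
      rw [h2]
      exact mul_mem hy (hNK h1)

theorem pj_lf (hN : IsPGroup p N) {K : Subgroup G} (hNK : N ≤ K)
    (hK : ∀ x ∈ K, ¬ p ∣ orderOf x → x ∈ Subgroup.centralizer (N : Set G)) {w : MonoidAlgebra k (G ⧸ N)}
    (hw : w ∈ Z k (K.map (QuotientGroup.mk' N))) (hreg : ∀ q, p ∣ orderOf q → w.coeff q = 0) :
    pj N k (lf N p w) = w := by
  classical
  letI := Fintype.ofFinite G
  apply H80.GA.ext'
  intro q
  rw [coeff_pj]
  simp only [coeff_lf]
  by_cases hq : p ∣ orderOf q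
  · rw [hreg q hq, Finset.sum_eq_zero]
    intro g _
    split_ifs with h1 h2
    · rfl
    · rw [h1, hreg q hq]
    · rfl
  · by_cases hqK : q ∈ K.map (QuotientGroup.mk' N)
    · obtain ⟨x, hx, hxr⟩ := H20.PC.exists_regular_lift (p := p) N q hq
      have hxK : x ∈ K := by
        obtain ⟨y, hy, hyx⟩ := hqK
        have hyx' : (y : G ⧸ N) = (x : G ⧸ N) := hyx.trans hx.symm
        have h1 : y⁻¹ * x ∈ N := QuotientGroup.eq.1 hyx'
        have h2 : x = y * (y⁻¹ * x) := by simp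
        rw [h2]
        exact mul_mem hy (hNK h1)
      rw [Finset.sum_eq_single x]
      · rw [if_pos hx, if_neg hxr, hx]
      · intro y _ hyx
        split_ifs with h1 h2
        · rfl
        · exfalso
          apply hyx
          exact (eq_of_mk N hN hxr h2 (hK x hxK hxr) (hx.trans h1.symm)).symm
        · rfl
      · intro h
        exact absurd (Finset.mem_univ _) h
    · have h0 : w.coeff q = 0 := coeff_eq_zero_of_mem_Sp hw.2 hqK
      rw [h0, Finset.sum_eq_zero]
      intro g _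
      split_ifs with h1 h2
      · rfl
      · rw [h1, h0]
      · rfl

variable [CharP k p] [Algebra (ZMod p) k] [Algebra.IsAlgebraic (ZMod p) k]

/-- images of blocks are blocks or zero -/
theorem pj_blk (hN : IsPGroup p N) {K : Subgroup G} (hNK : N ≤ K)
    (hK : ∀ x ∈ K, ¬ p ∣ orderOf x → x ∈ Subgroup.centralizer (N : Set G)) {w : MonoidAlgebra k (G ⧸ N)}
    (hw : w ∈ Z k (K.map (QuotientGroup.mk' N))) (hww : w * w = w) (hreg : ∀ q, p ∣ orderOf q → w.coeff q = 0)
    {z : MonoidAlgebra k G} (hz : IsBlk K z) : pj N k z * w = 0 ∨ pj N k z * w = pj N k z := by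
  obtain ⟨n, hn, h⟩ := blk_local p hz (lf_mem (p := p) N hNK hw)
  have h1 : pj N k (z * lf N p w) = pj N k z * w := by
    rw [map_mul, pj_lf N hN hNK hK hw hreg]
  have hzw : pj N k z * w = w * pj N k z := Z_comm (pj_mem_Z N hz.mem) hw
  have hzz : pj N k z * pj N k z = pj N k z := by rw [← map_mul, hz.idem]
  have h2 : IsIdempotentElem (pj N k z * w) := by
    unfold IsIdempotentElem
    rw [mul_assoc, ← mul_assoc w, ← hzw, mul_assoc (pj N k z) w w, hww, ← mul_assoc, hzz]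
  have h3 : (pj N k z * w) ^ n = pj N k z * w := h2.pow_eq hn.ne'
  rw [← h3, ← h1, ← map_pow]
  rcases h with h | h
  · left; rw [h, map_zero]
  · right; rw [h]

end pj

section nilp

variable {k : Type*} [Field k] {G : Type u} [Group G] [Finite G] {p : ℕ} [hp : Fact p.Prime]
variable [CharP k p] [Algebra (ZMod p) k] [Algebra.IsAlgebraic (ZMod p) k]

theorem cs_normal (P : Subgroup G) [hP : P.Normal] (g : G) : cs g P = P := by
  rw [← mem_normalizer, Subgroup.normalizer_eq_top P]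
  exact Subgroup.mem_top g

theorem cs_top (g : G) : cs g (⊤ : Subgroup G) = ⊤ := cs_of_mem (Subgroup.mem_top g)

theorem mul_ne_of_sle {Q P : Subgroup G} {f e : MonoidAlgebra k G} (hP : IsPair p ⊤ P e)
    (h : SLE p ⊤ Q f P e) : e * f ≠ 0 := by
  have hind : e * f ≠ 0 ∧ Q ≤ P := by
    refine rtg_ind (M := fun a : Subgroup G × MonoidAlgebra k G => e * a.2 ≠ 0 ∧ a.1 ≤ P) h ?_ ?_
    · exact ⟨by show e * e ≠ 0; rw [hP.blk.idem]; exact hP.blk.ne, le_rfl⟩
    · rintro ⟨Qa, fa⟩ ⟨Qb, fb⟩ hab ⟨h1, h2⟩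
      have hab' : NLE p ⊤ Qa fa Qb fb := hab
      have h1' : e * fb ≠ 0 := h1
      have h2' : Qb ≤ P := h2
      refine ⟨?_, hab'.le.trans h2'⟩
      show e * fa ≠ 0
      intro h0
      apply h1'
      have heS : e ∈ Sp k (Subgroup.centralizer (Qb : Set G)) :=
        Sp_mono (inf_le_left.trans (Subgroup.centralizer_le h2')) hP.blk.mem.2
      have heF : e ∈ Fx k Qb := mem_Fx_of_mem_Sp_centralizer heS
      have h3 := br_mul hab'.pairP.pgr heF hab'.fx
      rw [h0, map_zero, br_of_mem_Sp heS] at h3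
      rw [← hab'.br, ← mul_assoc, ← h3, zero_mul]
  exact hind.1

/-- criterion for nilpotency for blocks with normal defect group -/
theorem nilp_of_normal {P : Subgroup G} [hPn : P.Normal] {b e : MonoidAlgebra k G} (h : IsMax p ⊤ b P e)
    (hc : ∀ x ∈ ST ⊤ P e, ¬ p ∣ orderOf x → x ∈ Subgroup.centralizer (P : Set G)) : Nilp p ⊤ b := by
  have hP := h.of.pair
  refine ⟨h.of.blk, ?_⟩
  intro Q0 f0 hf x0 hx0 hpx0
  obtain ⟨g, hg, hle⟩ := sle_max h hf
  set Q := cs g Q0 with hQ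
  set f := cj g f0 with hf0
  set x := g * x0 * g⁻¹ with hxdef
  have hx : x ∈ ST ⊤ Q f := by
    have : x ∈ cs g (ST ⊤ Q0 f0) := by rw [hxdef, conj_mem_cs]; exact hx0
    rwa [cs_ST, cs_top] at this
  have hpx : ¬ p ∣ orderOf x := by
    have : orderOf x = orderOf x0 := by
      rw [hxdef]
      exact (MulAut.conj g).orderOf_eq x0
    rwa [this]
  have hQP : Q ≤ P := hle.le' hP
  have hQf := hle.pair_left hP
  have hne := mul_ne_of_sle hP hle
  have hNH : CH ⊤ P ≤ CH ⊤ Q := CH_mono hQP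
  have hcomm : e * f = f * e := (comm_of_mem hQf.blk.mem.1 (Sp_mono hNH hP.blk.mem.2)).symm
  have hcsC : ∀ y : G, cs y (CH ⊤ P) = CH ⊤ P := by
    intro y
    rw [cs_CH, cs_top, cs_normal P y]
  have he' : IsBlk (CH ⊤ P) (cj x e) := by
    have := blk_cj hP.blk x
    rwa [hcsC] at this
  have hN : CH ⊤ Q ≤ Subgroup.normalizer ((CH ⊤ P : Subgroup G) : Set G) := by
    intro y _
    rw [mem_normalizer, hcsC]
  obtain ⟨c, hcQ, hce⟩ := H80.GO.cover_conj hNH hN hQf.blk hP.blk he' (by rw [← hcomm]; exact hne) (by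
    intro h0
    apply hne
    have h1 : cj x (f * e) = f * cj x e := by rw [map_mul, hx.2.2]
    rw [h0] at h1
    rw [hcomm, ← cj_inv_cj x (f * e), h1, map_zero])
  set y := c⁻¹ * x with hy
  have hyT : y ∈ ST ⊤ P e := by
    refine ⟨Subgroup.mem_top _, ?_, ?_⟩
    · rw [mem_normalizer, cs_normal P]
    · rw [hy, cj_mul, hce, cj_inv_cj]
  have hact : ∀ u ∈ Q, x * u * x⁻¹ = y * u * y⁻¹ := by
    intro u hu
    have h1 : x * u * x⁻¹ ∈ Q := (mem_normalizer_iff'.1 hx.2.1 u).1 hu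
    have h2 := Subgroup.mem_centralizer_iff.1 hcQ.1 _ h1
    have h3 : y * u * y⁻¹ = c⁻¹ * (x * u * x⁻¹ * c) := by rw [hy]; simp [mul_assoc]
    rw [h3, h2, inv_mul_cancel_left]
  have hpow : ∀ n : ℕ, ∀ u ∈ Q, x ^ n * u * (x ^ n)⁻¹ = y ^ n * u * (y ^ n)⁻¹ := by
    intro n
    induction n with
    | zero => intro u _; simp
    | succ n ih =>
      intro u hu
      have h1 : x * u * x⁻¹ ∈ Q := (mem_normalizer_iff'.1 hx.2.1 u).1 hu
      have h2 := ih _ h1
      rw [pow_succ, pow_succ]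
      have h3 : x ^ n * x * u * (x ^ n * x)⁻¹ = x ^ n * (x * u * x⁻¹) * (x ^ n)⁻¹ := by
        simp [mul_assoc]
      rw [h3, h2, hact u hu]; simp [mul_assoc]
  obtain ⟨m, n, hn, hmn⟩ := Nat.exists_eq_pow_mul_and_not_dvd (orderOf_pos y).ne' p
    (Nat.Prime.ne_one Fact.out)
  have hyp : ¬ p ∣ orderOf (y ^ p ^ m) := by
    have h2 : orderOf (y ^ p ^ m) ∣ n := by
      apply orderOf_dvd_of_pow_eq_one
      rw [← pow_mul, ← hmn, pow_orderOf_eq_one]
    exact fun h => hn (h.trans h2)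
  have hyc := hc _ (pow_mem hyT (p ^ m)) hyp
  have hcop : Nat.Coprime (orderOf x) (p ^ m) :=
    (Nat.Coprime.pow_right m ((Nat.Prime.coprime_iff_not_dvd Fact.out).2 hpx).symm)
  obtain ⟨r, hr⟩ := exists_pow_eq_self_of_coprime hcop.symm
  have hxc : ∀ u ∈ Q, x * u * x⁻¹ = u := by
    intro u hu
    have h1 := hpow (p ^ m * r) u hu
    rw [pow_mul, hr, pow_mul] at h1
    have h2 := Subgroup.mem_centralizer_iff.1 (pow_mem hyc r) u (hQP hu)
    rw [← h2, mul_inv_cancel_right] at h1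
    exact h1
  have hxQ : x ∈ Subgroup.centralizer (Q : Set G) := by
    rw [Subgroup.mem_centralizer_iff]
    intro u hu
    have := hxc u hu
    exact (mul_inv_eq_iff_eq_mul.1 this).symm
  rw [hxdef, hQ, ← cs_centralizer, conj_mem_cs] at hxQ
  exact hxQ

end nilp

section main

open H20.NormQ H80.FS4

variable {M : Ideal AlgInt} [M.IsMaximal] {G : Type u} [Group G] [Finite G] {p : ℕ}

theorem blk_regular (hM : IsPModular p M) {K : Subgroup G} {e : MonoidAlgebra (ResF M) G} (he : IsBlk K e)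
    {q : G} (hq : p ∣ orderOf q) : e.coeff q = 0 := by
  classical
  obtain ⟨S, hS, rfl⟩ := exists_bl he
  rw [coeff_bl]
  unfold subgroupBlockCoeff
  split_ifs with h
  · rw [blockCoeff_eq_zero hM (isUnion_of_isPBlock hS) (by rwa [Subgroup.orderOf_mk]), redFun_zero]
  · exact redFun_zero

theorem pj_redZ (N : Subgroup G) [N.Normal] {z : ZG G} (hz : z ∈ zr M G) :
    pj N (ResF M) (redZ z) = redZ (pushZ N z) := by
  classical
  letI := Fintype.ofFinite G
  apply H80.GA.ext'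
  intro q
  rw [coeff_pj, coeff_redZ, zc_pushZ, redFun_sum]
  · refine Finset.sum_congr rfl fun g _ => ?_
    split_ifs
    · rfl
    · exact redFun_zero.symm
  · intro g _
    split_ifs
    · exact hz g
    · exact locR_zero

theorem pj_ebar_mul (N : Subgroup G) [N.Normal] {B : Set (IrrCharacter G)} (hB : IsPBlock M B)
    {Bb : Set (IrrCharacter (G ⧸ N))} (hBb : IsPBlock M Bb) (h : ∀ χ ∈ Bb, infl N χ ∈ B) :
    pj N (ResF M) (ebar M B) * ebar M Bb = ebar M Bb := by
  haveI : M.IsPrime := inferInstance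
  unfold ebar
  rw [pj_redZ N (eB_mem hB), ← redZ_mul (pushZ_mem N (eB_mem hB)) (eB_mem hBb)]
  congr 1
  apply eq_of_omega
  intro χ
  rw [map_mul, omega_pushZ]
  by_cases hχ : χ ∈ Bb
  · rw [omega_eB_mem (h χ hχ), one_mul]
  · rw [omega_eB_notMem hχ, mul_zero]

theorem nilp_of_quot (hM : IsPModular p M) {B : Set (IrrCharacter G)} (hB : IsPBlock M B)
    {P : Subgroup G} [hPn : P.Normal] (hP : IsDefectGroup p M B P) {N : Subgroup G} [hNn : N.Normal] (hNP : N ≤ P)
    (hcop : ∀ x : G, ¬ p ∣ orderOf x → (∀ u ∈ P, u⁻¹ * (x * u * x⁻¹) ∈ N) → x ∈ Subgroup.centralizer (P : Set G))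
    (hab : ∀ x ∈ P, ∀ y ∈ P, (x * y)⁻¹ * (y * x) ∈ N)
    {Bb : Set (IrrCharacter (G ⧸ N))} (hBb : IsPBlock M Bb) (hcont : ∀ χ ∈ Bb, infl N χ ∈ B)
    (hPb : IsDefectGroup p M Bb (P.map (QuotientGroup.mk' N))) (hnil : IsNilpotentBlock p M Bb) :
    IsNilpotentBlock p M B := by
  classical
  haveI : Fact p.Prime := ⟨hM.1⟩
  haveI : CharP (ResF M) p := charP_resF hM
  letI : Algebra (ZMod p) (ResF M) := ZMod.algebra (ResF M) p
  haveI : Algebra.IsAlgebraic (ZMod p) (ResF M) := H80.BR1.isAlgebraic_resF hM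
  haveI : IsAlgClosed (ResF M) := isAlgClosed_resF
  set P' : Subgroup (G ⧸ N) := P.map (QuotientGroup.mk' N) with hP'
  haveI hP'n : P'.Normal := hPn.map _ (QuotientGroup.mk'_surjective N)
  set C' : Subgroup (G ⧸ N) := Subgroup.centralizer (P' : Set (G ⧸ N)) with hC'
  haveI hC'n : C'.Normal := inferInstance
  set K : Subgroup G := C'.comap (QuotientGroup.mk' N) with hK
  haveI hKn : K.Normal := hC'n.comap _
  have hKmap : K.map (QuotientGroup.mk' N) = C' :=
    Subgroup.map_comap_eq_self_of_surjective (QuotientGroup.mk'_surjective N) C'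
  have hCH : CH ⊤ P' = K.map (QuotientGroup.mk' N) := by
    rw [hKmap]
    unfold CH
    exact inf_top_eq _
  have hab' : ∀ x ∈ P', ∀ y ∈ P', x * y = y * x := by
    rintro _ ⟨x, hx, rfl⟩ _ ⟨y, hy, rfl⟩
    exact QuotientGroup.eq.2 (hab x hx y hy)
  have hPp : IsPGroup p P := H20.DefGrp.isPGroup_of_isDefectGroup hP
  have hNp : IsPGroup p N := hPp.to_le hNP
  have hNK : N ≤ K := by
    intro n hn
    rw [hK, Subgroup.mem_comap]
    have : QuotientGroup.mk' N n = 1 := (QuotientGroup.eq_one_iff n).2 hn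
    rw [this]
    exact one_mem _
  have hPK : P ≤ K := by
    intro x hx
    rw [hK, Subgroup.mem_comap, hC', Subgroup.mem_centralizer_iff]
    intro y hy
    exact hab' y hy _ ⟨x, hx, rfl⟩
  have hCK : Subgroup.centralizer (P : Set G) ≤ K := by
    intro x hx
    rw [hK, Subgroup.mem_comap, hC', Subgroup.mem_centralizer_iff]
    rintro _ ⟨y, hy, rfl⟩
    rw [← map_mul, ← map_mul, Subgroup.mem_centralizer_iff.1 hx y hy]
  have hKreg : ∀ x ∈ K, ¬ p ∣ orderOf x → x ∈ Subgroup.centralizer (P : Set G) := by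
    intro x hx hpx
    apply hcop x hpx
    intro u hu
    rw [hK, Subgroup.mem_comap, hC', Subgroup.mem_centralizer_iff] at hx
    have h1 := hx _ ⟨u, hu, rfl⟩
    rw [← QuotientGroup.eq_one_iff]
    have h2 : ((u : G) : G ⧸ N) * (x : G ⧸ N) = (x : G ⧸ N) * (u : G ⧸ N) := h1
    rw [QuotientGroup.mk_mul, QuotientGroup.mk_mul, QuotientGroup.mk_mul, QuotientGroup.mk_inv, QuotientGroup.mk_inv,
      ← h2, mul_inv_cancel_right, inv_mul_cancel]
  have hKN : ∀ x ∈ K, ¬ p ∣ orderOf x → x ∈ Subgroup.centralizer (N : Set G) := fun x hx hpx =>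
    Subgroup.centralizer_le hNP (hKreg x hx hpx)
  obtain ⟨e, hmax⟩ := H84.Star.exists_isMax_of_isDefectGroup hM hB hP
  obtain ⟨fb, hmaxb⟩ := H84.Star.exists_isMax_of_isDefectGroup hM hBb hPb
  have hnil' := (nilp_iff_top (p := p) hBb).1 hnil
  rw [nilp_iff_top (p := p) hB]
  apply nilp_of_normal hmax
  intro x hx hpx
  -- idempotent facts
  have hbe : ebar M B * e = e := by
    have h1 := hmax.of.br
    rwa [H80.GG.br_idem_eq hPp le_top (by rw [Subgroup.normalizer_eq_top P]) hmax.of.blk.mem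
      hmax.of.blk.idem] at h1
  have hbfb : ebar M Bb * fb = fb := by
    have h1 := hmaxb.of.br
    rwa [H80.GG.br_idem_eq hmaxb.of.pair.pgr le_top (by rw [Subgroup.normalizer_eq_top P']) hmaxb.of.blk.mem
      hmaxb.of.blk.idem] at h1
  have hfb := hmaxb.of.pair.blk
  rw [hCH] at hfb
  -- the block of `K` above `fb`
  have hz0 : ∃ z0, IsBlk K z0 ∧ pj N (ResF M) z0 = fb := by
    have h1 : ∃ z0 : {z : MonoidAlgebra (ResF M) G // IsBlk K z}, pj N (ResF M) z0.1 * fb ≠ 0 := by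
      by_contra hcon
      push Not at hcon
      apply hfb.ne
      have h2 := sum_blk_one (k := ResF M) K
      rw [← one_mul fb, ← map_one (pj N (ResF M)), ← h2, map_sum, Finset.sum_mul]
      exact Finset.sum_eq_zero fun z _ => hcon z
    obtain ⟨⟨z0, hz0⟩, h2⟩ := h1
    refine ⟨z0, hz0, ?_⟩
    have h3 : pj N (ResF M) z0 * fb = fb := by
      rcases hfb.cases (pj_mem_Z N hz0.mem) (by rw [← map_mul, hz0.idem]) with h | h
      · exact absurd h h2
      · exact h
    rcases pj_blk N hNp hNK hKN hfb.mem hfb.idem (fun q hq => blk_regular hM hfb hq) hz0 with h | h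
    · exact absurd h h2
    · exact h.symm.trans h3
  obtain ⟨z0, hz0, hz0f⟩ := hz0
  have hbz0 : ebar M B * z0 ≠ 0 := by
    intro h0
    apply hfb.ne
    have h1 : pj N (ResF M) (ebar M B) * fb = fb := by
      rw [← hbfb, ← mul_assoc, pj_ebar_mul N hB hBb hcont]
    rw [← h1, ← hz0f, ← map_mul, h0, map_zero]
  -- the block of `K` above `e`
  have hCHK : CH K P = CH ⊤ P := by
    unfold CH
    rw [inf_top_eq]
    exact inf_eq_left.2 hCK
  have hpe : IsPair p K P e := ⟨hPp, hPK, by rw [hCHK]; exact hmax.of.pair.blk⟩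
  obtain ⟨z, hz⟩ := exists_pairOf hpe
  have hze : z * e = e := by
    have h1 := hz.br
    rwa [H80.GG.br_idem_eq hPp hPK (by rw [Subgroup.normalizer_eq_top P]; exact le_top) hz.blk.mem
      hz.blk.idem] at h1
  have hbz : ebar M B * z ≠ 0 := by
    intro h0
    apply hmax.of.pair.blk.ne
    rw [← hbe, ← hze, ← mul_assoc, h0, zero_mul]
  obtain ⟨g, _, hg⟩ := H80.GO.cover_conj (N := K) (H := ⊤) le_top (by rw [Subgroup.normalizer_eq_top K])
    hmax.of.blk hz0 hz.blk hbz0 hbz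
  have hpz : pj N (ResF M) z = cj (g : G ⧸ N) fb := by rw [hg, pj_cj, hz0f]
  have hmaxz : IsMax p ⊤ (ebar M Bb) P' (pj N (ResF M) z) := by
    have h1 := isMax_cj hmaxb (g : G ⧸ N)
    rwa [cs_top, cs_normal P', cj_mem_Z_self hmaxb.of.blk (Subgroup.mem_top _), ← hpz] at h1
  have hxz : cj x z = z := by
    have h1 := pairOf_cj hz x
    rw [cs_normal K, cs_normal P, hx.2.2] at h1
    exact pairOf_unique h1 hz
  have hx' : (x : G ⧸ N) ∈ ST ⊤ P' (pj N (ResF M) z) := by
    refine ⟨Subgroup.mem_top _, ?_, ?_⟩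
    · rw [mem_normalizer, cs_normal P']
    · rw [← pj_cj, hxz]
  have h2 := (H80.GV.nilp_abelian hmaxz hab').1 hnil' _ hx'
  exact hKreg x h2 hpx

end main

end H20.NDef
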