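import Mathlib
import Cfsg.Agent.Lib.H20.NDef
import Cfsg.Agent.Lib.H20.Rey
import Cfsg.Agent.Lib.H77.DefQuot
import Cfsg.Agent.Lib.H1.Coprime2
import Cfsg.Agent.Lib.H3.PBasic

/-!
# Blocks with normal defect groups whose height zero characters have the same degree
-/

set_option autoImplicit false
set_option linter.unusedSectionVars false
set_option linter.unusedVariables false
set_option linter.style.haveILetI false

open Cfsg H20.Loc H20.GA H20.Blk H20.Orth H20.Defect H20.NormQ H80.GA H80.GB H80.BR1 H84.RG H84.Star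
open scoped ComplexConjugate commutatorElement

universe u

namespace H20.NDef

variable {M : Ideal AlgInt} [M.IsMaximal] {G : Type u} [Group G] [Finite G] {p : ℕ}

theorem factor_index (hM : IsPModular p M) {B : Set (IrrCharacter G)} (hB : IsPBlock M B)
    {P : Subgroup G} (hP : IsDefectGroup p M B P) :
    blockDefect p B + P.index.factorization p = (Nat.card G).factorization p := by
  have h1 := P.card_mul_index
  have h2 := card_defectGroup hM hB hP
  have h3 : (Nat.card P).factorization p = blockDefect p B := by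
    rw [h2, hM.1.factorization_pow, Finsupp.single_eq_same]
  rw [← h1, Nat.factorization_mul (Nat.card_pos).ne' Subgroup.index_ne_zero_of_finite, Finsupp.add_apply, h3]

theorem centralizes_of_commutator [Fact p.Prime] {P : Subgroup G} (hP : IsPGroup p P) {x : G}
    (hx : ¬ p ∣ orderOf x) (h : ∀ u ∈ P, u⁻¹ * (x * u * x⁻¹) ∈ ⁅P, P⁆) : x ∈ Subgroup.centralizer (P : Set G) := by
  have hPP : ⁅P, P⁆ ≤ P := Subgroup.commutator_le_self P
  have hN : ∀ u, x * u * x⁻¹ ∈ P ↔ u ∈ P := by
    have h1 : ∀ u ∈ P, x * u * x⁻¹ ∈ P := by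
      intro u hu
      have h2 : x * u * x⁻¹ = u * (u⁻¹ * (x * u * x⁻¹)) := by simp
      rw [h2]
      exact mul_mem hu (hPP (h u hu))
    have h3 : cs x P ≤ P := by
      intro y hy
      rw [mem_cs] at hy
      have := h1 _ hy
      have h4 : x * (x⁻¹ * y * x) * x⁻¹ = y := by simp [mul_assoc]
      rwa [h4] at this
    have h5 : cs x P = P := Subgroup.eq_of_le_of_card_ge h3 (by rw [card_cs])
    intro u
    conv_lhs => rw [← h5]
    exact conj_mem_cs
  have key : Subgroup.zpowers x ≤ Subgroup.centralizer (P : Set G) := by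
    apply H1.Coprime2.le_centralizer_of_frattini
    · rw [Nat.card_zpowers]
      obtain ⟨m, hm⟩ := IsPGroup.iff_card.1 (hP.to_subgroup (frattini P))
      rw [hm]
      exact (Nat.Coprime.pow_left m ((Nat.Prime.coprime_iff_not_dvd Fact.out).2 hx)).symm
    · have hcomm : ⁅P, P⁆ ≤ (frattini P).map P.subtype := by
        have h1 := H3.PBasic.commutator_le_frattini hP
        have h2 : ⁅P, P⁆ = (commutator P).map P.subtype := by
          rw [commutator_def, Subgroup.map_commutator, ← MonoidHom.range_eq_map, Subgroup.range_subtype]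
        rw [h2]
        exact Subgroup.map_mono h1
      have hchar : ∀ y : G, (∀ u, y * u * y⁻¹ ∈ P ↔ u ∈ P) → ∀ u ∈ ⁅P, P⁆, y * u * y⁻¹ ∈ ⁅P, P⁆ := by
        intro y hy u hu
        have hcs : cs y P = P := by
          ext v
          rw [mem_cs]
          have := hy (y⁻¹ * v * y)
          have h4 : y * (y⁻¹ * v * y) * y⁻¹ = v := by simp [mul_assoc]
          rw [h4] at this
          exact this.symm
        have h1 : cs y ⁅P, P⁆ = ⁅P, P⁆ := by
          unfold cs
          rw [Subgroup.map_commutator]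
          change ⁅cs y P, cs y P⁆ = _
          rw [hcs]
        have h2 : y * u * y⁻¹ ∈ cs y ⁅P, P⁆ := conj_mem_cs.2 hu
        rwa [h1] at h2
      -- the set of elements normalising and acting trivially modulo the commutator subgroup
      have hall : ∀ a ∈ Subgroup.zpowers x, ∀ k ∈ P, a * k * a⁻¹ * k⁻¹ ∈ ⁅P, P⁆ := by
        let S : Subgroup G :=
          { carrier := {a | (∀ u, a * u * a⁻¹ ∈ P ↔ u ∈ P) ∧ ∀ k ∈ P, k⁻¹ * (a * k * a⁻¹) ∈ ⁅P, P⁆}
            mul_mem' := by
              rintro a b ⟨ha1, ha2⟩ ⟨hb1, hb2⟩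
              refine ⟨fun u => ?_, fun k hk => ?_⟩
              · have h1 : a * b * u * (a * b)⁻¹ = a * (b * u * b⁻¹) * a⁻¹ := by simp [mul_assoc]
                rw [h1, ha1, hb1]
              · have h2 := hb2 k hk
                have h3 := ha2 k hk
                have h4 := hchar a ha1 _ h2
                have h5 : k⁻¹ * (a * b * k * (a * b)⁻¹) =
                    (k⁻¹ * (a * k * a⁻¹)) * (a * (k⁻¹ * (b * k * b⁻¹)) * a⁻¹) := by simp [mul_assoc]
                rw [h5]
                exact mul_mem h3 h4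
            one_mem' := ⟨fun u => by simp, fun k hk => by simp⟩
            inv_mem' := by
              rintro a ⟨ha1, ha2⟩
              have ha1' : ∀ u, a⁻¹ * u * a⁻¹⁻¹ ∈ P ↔ u ∈ P := by
                intro u
                have := ha1 (a⁻¹ * u * a)
                have h4 : a * (a⁻¹ * u * a) * a⁻¹ = u := by simp [mul_assoc]
                rw [h4] at this
                rw [inv_inv]
                exact this.symm
              refine ⟨ha1', fun k hk => ?_⟩
              have h2 := ha2 k hk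
              have h3 := hchar a⁻¹ ha1' _ h2
              have h4 : k⁻¹ * (a⁻¹ * k * a⁻¹⁻¹) = (a⁻¹ * (k⁻¹ * (a * k * a⁻¹)) * a⁻¹⁻¹)⁻¹ := by
                simp [mul_assoc]
              rw [h4]
              exact inv_mem h3 }
        have hxS : x ∈ S := ⟨hN, h⟩
        intro a ha k hk
        have haS : a ∈ S := (Subgroup.zpowers_le.2 hxS) ha
        have h1 := haS.2 k hk
        have h2 := hchar k (fun u => by
          constructor
          · intro h8
            have h9 := mul_mem (mul_mem (inv_mem hk) h8) hk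
            simpa [mul_assoc] using h9
          · intro h8
            exact mul_mem (mul_mem hk h8) (inv_mem hk)) _ h1
        have h3 : k * (k⁻¹ * (a * k * a⁻¹)) * k⁻¹ = a * k * a⁻¹ * k⁻¹ := by simp [mul_assoc]
        rwa [h3] at h2
      intro a ha k hk
      exact hcomm (hall a ha k hk)
  exact key (Subgroup.mem_zpowers x)

theorem nilpotent_of_height_deg (hM : IsPModular p M) {B : Set (IrrCharacter G)} (hB : IsPBlock M B)
    {P : Subgroup G} [hPn : P.Normal] (hP : IsDefectGroup p M B P) {n : ℕ}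
    (hn : ∀ χ ∈ B, blockHeight p B (χ : G → ℂ) = 0 → charDegree (χ : G → ℂ) = n) : IsNilpotentBlock p M B := by
  haveI : Fact p.Prime := ⟨hM.1⟩
  have hPp : IsPGroup p P := H20.DefGrp.isPGroup_of_isDefectGroup hP
  have hNP : ⁅P, P⁆ ≤ P := Subgroup.commutator_le_self P
  have hNp : IsPGroup p (⁅P, P⁆ : Subgroup G) := hPp.to_le hNP
  haveI hNn : (⁅P, P⁆ : Subgroup G).Normal := inferInstance
  obtain ⟨Bb, h1, h2, h3⟩ := H77.DefQuot.exists_block ⁅P, P⁆ hM hNp hB
  have hPb : IsDefectGroup p M Bb (P.map (QuotientGroup.mk' ⁅P, P⁆)) := (h3 _).2 ⟨P, hP, rfl⟩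
  haveI hPbn : (P.map (QuotientGroup.mk' ⁅P, P⁆)).Normal := hPn.map _ (QuotientGroup.mk'_surjective _)
  have hab0 : ∀ x ∈ P, ∀ y ∈ P, (x * y)⁻¹ * (y * x) ∈ ⁅P, P⁆ := by
    intro x hx y hy
    have h4 : (x * y)⁻¹ * (y * x) = ⁅y⁻¹, x⁻¹⁆ := by
      rw [commutatorElement_def]; simp [mul_assoc]
    rw [h4]
    exact Subgroup.commutator_mem_commutator (inv_mem hy) (inv_mem hx)
  have hab : ∀ x ∈ P.map (QuotientGroup.mk' ⁅P, P⁆), ∀ y ∈ P.map (QuotientGroup.mk' ⁅P, P⁆), x * y = y * x := by
    rintro _ ⟨x, hx, rfl⟩ _ ⟨y, hy, rfl⟩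
    exact QuotientGroup.eq.2 (hab0 x hx y hy)
  have hidx : (P.map (QuotientGroup.mk' ⁅P, P⁆)).index = P.index := by
    rw [Subgroup.index_map, QuotientGroup.ker_mk', sup_eq_left.2 hNP]
    have : (QuotientGroup.mk' ⁅P, P⁆).range = ⊤ := MonoidHom.range_eq_top.2 (QuotientGroup.mk'_surjective _)
    rw [this, Subgroup.index_top, mul_one]
  have hh := (H20.Rey.reynolds _ hM h1 hPb).1 hab
  have hdeg : ∀ χ ∈ Bb, charDegree (χ : G ⧸ ⁅P, P⁆ → ℂ) = n := by
    intro χ hχ
    have hd : charDegree (χ : G ⧸ ⁅P, P⁆ → ℂ) = charDegree (infl ⁅P, P⁆ χ : G → ℂ) := by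
      rw [charDegree, charDegree, infl_apply, QuotientGroup.mk_one]
    rw [hd]
    apply hn _ (h2 χ hχ)
    rw [height_zero_iff hM hB (h2 χ hχ), ← hd]
    have h5 := (height_zero_iff hM h1 hχ).1 (hh χ hχ)
    have h6 := factor_index hM hB hP
    have h7 := factor_index hM h1 hPb
    rw [hidx] at h7
    omega
  have hnil := H20.Cor.nilpotent_of_deg hM h1 hdeg hPb hab
  exact nilp_of_quot hM hB hP hNP (fun x hx h => centralizes_of_commutator hPp hx h) hab0 h1 h2 hPb hnil

/-- in a nilpotent block the height zero characters have the same degree -/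
theorem height_deg_of_nilpotent (hM : IsPModular p M) {B : Set (IrrCharacter G)} (hB : IsPBlock M B)
    (hnil : IsNilpotentBlock p M B) {P : Subgroup G} (hP : IsDefectGroup p M B P) :
    ∃ n, ∀ χ ∈ B, blockHeight p B (χ : G → ℂ) = 0 → charDegree (χ : G → ℂ) = n := by
  haveI : Fact p.Prime := ⟨hM.1⟩
  haveI : CharP (ResF M) p := charP_resF hM
  letI : Algebra (ZMod p) (ResF M) := ZMod.algebra (ResF M) p
  haveI : Algebra.IsAlgebraic (ZMod p) (ResF M) := H80.BR1.isAlgebraic_resF hM
  haveI : IsAlgClosed (ResF M) := isAlgClosed_resF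
  have hnil' := (H80.FS4.nilp_iff_top (p := p) hB).1 hnil
  obtain ⟨e', hmax'⟩ := H84.Star.exists_isMax_of_isDefectGroup hM hB hP
  obtain ⟨χ, hχ, h0⟩ := exists_height_zero hM hB
  refine ⟨charDegree (χ : G → ℂ), fun ψ hψ hψ0 => ?_⟩
  obtain ⟨ζ, hζ⟩ := (H84.Star.nilEquiv hM hmax' hB hnil' hχ h0).surjective ⟨ψ, hψ⟩
  have h1 := H84.Star.nilEquiv_degree hM hmax' hB hnil' hχ h0 ζ
  have h2 := H84.Star.nilEquiv_height hM hmax' hB hnil' hχ h0 ζ
  rw [hζ] at h1 h2
  have h3 : charDegree (ζ : P → ℂ) = 1 := by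
    have h4 : charDegree (ζ : P → ℂ) ∣ Nat.card P := charDegree_dvd_card ζ
    obtain ⟨m, hm⟩ := IsPGroup.iff_card.1 (H20.DefGrp.isPGroup_of_isDefectGroup hP)
    rw [hm] at h4
    obtain ⟨j, _, hj⟩ := (Nat.dvd_prime_pow hM.1).1 h4
    rw [hj, hM.1.factorization_pow, Finsupp.single_eq_same] at h2
    have h5 : j = 0 := by
      rw [← h2]; exact hψ0
    rw [hj, h5, pow_zero]
  rw [h3, one_mul] at h1
  exact h1

end H20.NDef
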