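import Mathlib
import Cfsg.Agent.Lib.H20.BrT8
import Cfsg.Agent.Lib.H78.BlkCount

/-!
# Galois conjugation on a block: the trace on a section
-/

set_option autoImplicit false
set_option linter.unusedSectionVars false
set_option linter.unusedVariables false
set_option linter.style.haveILetI false

open Cfsg H20.Loc H20.GA H20.Blk H20.Orth H20.Defect H80.GA H80.GB H80.BR1 H84.RG H84.Star H18.CharBasic H18.CharOrtho
open scoped ComplexConjugate

universe u

namespace H20.PRat

open H20.BrT

variable {M : Ideal AlgInt} [M.IsMaximal] {C : Type u} [Group C] [Finite C] {p : ℕ}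

/-- transport of the modular group algebra by an automorphism -/
noncomputable def mp {R : Type*} [CommSemiring R] (φ : C ≃* C) : MonoidAlgebra R C →+* MonoidAlgebra R C :=
  (MonoidAlgebra.domCongr R R φ : MonoidAlgebra R C ≃ₐ[R] MonoidAlgebra R C).toRingEquiv.toRingHom

theorem coeff_mp {R : Type*} [CommSemiring R] (φ : C ≃* C) (a : MonoidAlgebra R C) (x : C) :
    (mp φ a).coeff x = a.coeff (φ.symm x) := by
  show ((MonoidAlgebra.domCongr R R φ) a).coeff x = _
  rw [MonoidAlgebra.coeff_domCongr]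

theorem iC_mp (φ : C ≃* C) (a : AR M C) : iC M C (mp φ a) = mp φ (iC M C a) :=
  H80.GA.ext' fun x => by rw [coeff_iC, coeff_mp, coeff_mp, coeff_iC]

theorem iK_mp (φ : C ≃* C) (a : AR M C) : iK M C (mp φ a) = mp φ (iK M C a) :=
  H80.GA.ext' fun x => by rw [coeff_iK, coeff_mp, coeff_mp, coeff_iK]

theorem comp_class {θ : C → ℂ} (hθ : IsClassFunction C θ) (φ : C ≃* C) :
    IsClassFunction C (fun c => θ (φ c)) := by
  intro g h
  show θ (φ (h * g * h⁻¹)) = θ (φ g)
  rw [map_mul, map_mul, map_inv, hθ]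

theorem val_comp (hM : IsPModular p M) {θ : C → ℂ} (hθ : IsClassFunction C θ) (φ : C ≃* C)
    {e : KG M C} (he : IsIdempotentElem e) : val (fun c => θ (φ c)) e = val θ (mp φ e) := by
  letI := Fintype.ofFinite C
  obtain ⟨ε, hε, rfl⟩ := exists_lift hM he
  rw [← iK_mp, val_lift hM (comp_class hθ φ) hε, val_lift hM hθ (hε.map (mp φ)), iC_mp, evA_eq_sum,
    evA_eq_sum]
  refine Fintype.sum_equiv φ.toEquiv _ _ fun c => ?_
  rw [coeff_mp]
  show _ = (iC M C ε).coeff (φ.symm (φ c)) * θ (φ c)
  rw [MulEquiv.symm_apply_apply]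

variable (D : Dat (ResF M) (KG M C)) (hM : IsPModular p M)
include hM

theorem val_congr_reg {θ η : C → ℂ} (hθ : IsClassFunction C θ) (hη : IsClassFunction C η)
    (h : ∀ g, IsPRegular p g → θ g = η g) (i : Fin D.n) : val θ (D.E i) = val η (D.E i) := by
  have h1 := th_indep D hM (a := fun i => val θ (D.E i) - val η (D.E i)) (by
    intro g hg
    have h2 := reg_expand D hM hθ hg
    rw [h g hg, reg_expand D hM hη hg] at h2
    rw [← sub_eq_zero, ← Finset.sum_sub_distrib] at h2
    rw [← neg_eq_zero, ← Finset.sum_neg_distrib, ← h2]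
    exact Finset.sum_congr rfl fun i _ => by ring)
  exact sub_eq_zero.1 (congrFun h1 i)

theorem th_comp (φ : C ≃* C) {s : C} (hs : IsPRegular p s) (i : Fin D.n) :
    th D hM i (φ s) = ∑ j, (D.rk (mp φ (D.E j)) i : ℂ) * th D hM j s := by
  have h1 := reg_expand D hM (comp_class (th_class D hM i) φ) hs
  rw [h1]
  refine Finset.sum_congr rfl fun j _ => ?_
  rw [val_comp hM (th_class D hM i) φ (D.idem j), val_th_eq D hM i ((D.idem j).map (mp φ)), mul_comm]

theorem gen_sum [Fintype C] (φ : C ≃* C) {ι : Type*} (s : Finset ι) (f : ι → C → ℂ)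
    (hf : ∀ x, IsClassFunction C (f x)) (P : Fin D.n → Prop) [DecidablePred P]
    (h : ∀ i j, ∑ x ∈ s, classInner (reg p (th D hM j)) (f x) * val (f x) (D.E i) =
      if i = j ∧ P i then 1 else 0) :
    ∑ c : C, (if p ∣ orderOf c then 0 else ∑ x ∈ s, f x (φ c) * conj (f x c)) =
      (Nat.card C : ℂ) * ∑ i ∈ Finset.univ.filter P, (D.rk (mp φ (D.E i)) i : ℂ) := by
  classical
  have hN : (Nat.card C : ℂ) ≠ 0 := by exact_mod_cast (Nat.card_pos (α := C)).ne'
  have hreg : ∀ c : C, IsPRegular p (φ c) ↔ IsPRegular p c := by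
    intro c
    unfold IsPRegular
    rw [MulEquiv.orderOf_eq]
  -- expand
  have h1 : ∀ c : C, (if p ∣ orderOf c then 0 else ∑ x ∈ s, f x (φ c) * conj (f x c)) =
      ∑ x ∈ s, ∑ i, ∑ j, val (f x) (D.E i) * (D.rk (mp φ (D.E j)) i : ℂ) *
        (reg p (th D hM j) c * conj (f x c)) := by
    intro c
    by_cases hc : p ∣ orderOf c
    · rw [if_pos hc]
      symm
      apply Finset.sum_eq_zero; intro x _
      apply Finset.sum_eq_zero; intro i _
      apply Finset.sum_eq_zero; intro j _
      rw [reg_not hc, zero_mul, mul_zero]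
    · rw [if_neg hc]
      refine Finset.sum_congr rfl fun x _ => ?_
      rw [reg_expand D hM (hf x) ((hreg c).2 hc), Finset.sum_mul]
      refine Finset.sum_congr rfl fun i _ => ?_
      rw [th_comp D hM φ (s := c) hc i, Finset.sum_mul, Finset.sum_mul]
      refine Finset.sum_congr rfl fun j _ => ?_
      rw [reg_of hc]
      ring
  rw [Finset.sum_congr rfl fun c _ => h1 c, Finset.sum_comm]
  have h2 : ∀ x ∈ s, ∑ c : C, ∑ i, ∑ j, val (f x) (D.E i) * (D.rk (mp φ (D.E j)) i : ℂ) *
        (reg p (th D hM j) c * conj (f x c)) = (Nat.card C : ℂ) * ∑ i, ∑ j, (D.rk (mp φ (D.E j)) i : ℂ) *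
          (classInner (reg p (th D hM j)) (f x) * val (f x) (D.E i)) := by
    intro x _
    rw [Finset.sum_comm, Finset.mul_sum]
    refine Finset.sum_congr rfl fun i _ => ?_
    rw [Finset.sum_comm, Finset.mul_sum]
    refine Finset.sum_congr rfl fun j _ => ?_
    rw [← Finset.mul_sum]
    have h3 : ∑ c : C, reg p (th D hM j) c * conj (f x c) =
        (Nat.card C : ℂ) * classInner (reg p (th D hM j)) (f x) := by
      unfold classInner
      rw [← mul_assoc, mul_inv_cancel₀ hN, one_mul]
    rw [h3]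
    ring
  rw [Finset.sum_congr rfl h2, ← Finset.mul_sum]
  congr 1
  rw [Finset.sum_comm, Finset.sum_filter]
  refine Finset.sum_congr rfl fun i _ => ?_
  rw [Finset.sum_comm]
  have h4 : ∀ j, ∑ x ∈ s, (D.rk (mp φ (D.E j)) i : ℂ) *
      (classInner (reg p (th D hM j)) (f x) * val (f x) (D.E i)) =
      if i = j ∧ P i then (D.rk (mp φ (D.E j)) i : ℂ) else 0 := by
    intro j
    rw [← Finset.mul_sum, h i j]
    split_ifs <;> simp
  rw [Finset.sum_congr rfl fun j _ => h4 j]
  by_cases hP : P i
  · simp [hP]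
  · simp [hP]

/-- every Brauer character lies in a block -/
theorem exists_block (i : Fin D.n) : ∃ χ : IrrCharacter C, InB D (blockOf M (χ : C → ℂ)) i := by
  classical
  haveI := pm_isPrime hM
  letI := Fintype.ofFinite (IrrCharacter C)
  obtain ⟨a, ha⟩ := exists_coef D hM i
  have h1 := coef_delta D hM (fun g _ => ha g) i
  rw [if_pos rfl] at h1
  by_contra! hno
  rw [Finset.sum_eq_zero] at h1
  · exact zero_ne_one h1
  intro χ _
  rw [dec_of_not D hM (isPBlock_blockOf χ) (mem_blockOf_self χ) (hno χ), Nat.cast_zero, mul_zero]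

/-- projecting to the block containing `i` does not change the value -/
theorem val_proj [Fintype C] {b : Set (IrrCharacter C)} (hb : IsPBlock M b) {i : Fin D.n} (hi : InB D b i)
    {f : C → ℂ} (hf : IsClassFunction C f) : val (proj b f) (D.E i) = val f (D.E i) := by
  classical
  letI := Fintype.ofFinite (IrrCharacter C)
  have h1 : proj b f = fun g => ∑ χ : IrrCharacter C,
      (if χ ∈ b then classInner f (χ : C → ℂ) else 0) * (χ : C → ℂ) g := by
    funext g
    rw [proj_eq_sum]
    refine Finset.sum_congr rfl fun χ _ => ?_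
    split_ifs
    · rfl
    · rw [zero_mul]
  have h2 : f = fun g => ∑ χ : IrrCharacter C, classInner f (χ : C → ℂ) * (χ : C → ℂ) g := by
    funext g
    conv_lhs => rw [mem_classFun_expand hf]
    rw [Finset.sum_apply]
    rfl
  rw [h1, val_sum_fun hM _ _ (fun χ : IrrCharacter C => isClassFunction_of_isIrr χ.2) (D.idem i)]
  conv_rhs => rw [h2, val_sum_fun hM _ _ (fun χ : IrrCharacter C => isClassFunction_of_isIrr χ.2) (D.idem i)]
  refine Finset.sum_congr rfl fun χ _ => ?_
  by_cases hχ : χ ∈ b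
  · rw [if_pos hχ]
  · rw [val_E_of_notMem D hM hb hχ hi, mul_zero, mul_zero]

end H20.PRat
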