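import Mathlib
import Cfsg.Agent.Lib.H20.PRat1
import Cfsg.Agent.Lib.H20.BrT6
import Cfsg.Agent.Lib.H78.Galois

/-!
# Galois conjugation on a block: the sections
-/

set_option autoImplicit false
set_option linter.unusedSectionVars false
set_option linter.unusedVariables false
set_option linter.style.haveILetI false

open Cfsg H20.Loc H20.GA H20.Blk H20.Orth H20.Defect H80.GA H80.GB H80.BR1 H84.RG H84.Star H18.CharBasic H18.CharOrtho
open scoped ComplexConjugate

universe u

namespace H20.PRat

open H20.BrT H78.BlkCount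

variable {M : Ideal AlgInt} [M.IsMaximal] {G : Type u} [Group G] [Finite G] {p : ℕ}

section sec

variable (hM : IsPModular p M) {B : Set (IrrCharacter G)} (hB : IsPBlock M B) {u : G}
  (hu : ∃ k : ℕ, orderOf u = p ^ k)
  (D : Dat (ResF M) (KG M (Subgroup.centralizer ({u} : Set G))))
include hM hB hu

/-- the value at `i` on a class function of the big group -/
noncomputable def lam (f : G → ℂ) (i : Fin D.n) : ℂ := val (H78.BlkCount.trL u f) (D.E i)

/-- `i` lies in a block inducing `B` -/
def Part (M : Ideal AlgInt) [M.IsMaximal] (B : Set (IrrCharacter G)) {u : G} (D : Dat (ResF M) (KG M (Subgroup.centralizer ({u} : Set G))))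
    (i : Fin D.n) : Prop :=
  ∃ b, IsPBlock M b ∧ InB D b i ∧ IsInducedBlock M (Subgroup.centralizer ({u} : Set G)) b B

theorem lam_zero_of_mem [Fintype G] {χ : IrrCharacter G} (hχ : χ ∈ B) {i : Fin D.n} (hi : ¬ Part M B D i) :
    val (H78.BlkCount.trL u (χ : G → ℂ)) (D.E i) = 0 := by
  classical
  haveI := pm_isPrime hM
  letI := Fintype.ofFinite (Subgroup.centralizer ({u} : Set G))
  obtain ⟨ψ, hψ⟩ := exists_block D hM i
  have hb := isPBlock_blockOf (M := M) ψ
  have hcl := trL_class u (isClassFunction_of_isIrr χ.2)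
  have hnot : ¬ IsInducedBlock M (Subgroup.centralizer ({u} : Set G)) (blockOf M (ψ : _ → ℂ)) B :=
    fun h => hi ⟨_, hb, hψ, h⟩
  rw [← val_proj D hM hb hψ hcl]
  have hpc : IsClassFunction _ (proj (blockOf M (ψ : Subgroup.centralizer ({u} : Set G) → ℂ)) (H78.BlkCount.trL u (χ : G → ℂ))) :=
    class_of_mem_spn (proj_mem_spn _ _)
  have h0 : IsClassFunction (Subgroup.centralizer ({u} : Set G)) (fun _ => (0 : ℂ)) := fun _ _ => rfl
  rw [val_congr_reg D hM hpc h0 (by
    intro y hy
    have h := H19.BrMap2.second_main hM u hu hB hχ hb hnot y hy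
    rw [blockPart] at h
    rw [← h, proj]
    refine finsum_mem_congr rfl fun ψ _ => ?_
    rw [H18.CharOrtho.inner_fintype _ (Fintype.ofFinite _)]
    rfl)]
  have h1 := val_smul_fun (M := M) hM 0 h0 (D.idem i)
  simp only [zero_mul] at h1
  exact h1

theorem lam_zero_of_notMem [Fintype G] {χ : IrrCharacter G} (hχ : χ ∉ B) {i : Fin D.n} (hi : Part M B D i) :
    val (H78.BlkCount.trL u (χ : G → ℂ)) (D.E i) = 0 := by
  haveI := pm_isPrime hM
  apply lam_zero_of_mem hM (isPBlock_blockOf (M := M) χ) hu D (mem_blockOf_self χ)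
  rintro ⟨b', hb', hib', hind'⟩
  obtain ⟨b, hb, hib, hind⟩ := hi
  have hbb : b = b' := by
    by_contra hne
    have h1 : ∀ χ ∈ b', χ ∉ b := fun χ h1 h2 => hne (isPBlock_eq_of_mem hb hb' h2 h1)
    -- all decomposition numbers vanish
    classical
    letI := Fintype.ofFinite (IrrCharacter (Subgroup.centralizer ({u} : Set G)))
    obtain ⟨a, ha⟩ := exists_coef D hM i
    have h2 := coef_delta D hM (fun g _ => ha g) i
    rw [if_pos rfl] at h2
    rw [Finset.sum_eq_zero] at h2
    · exact zero_ne_one h2
    intro ψ _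
    by_cases hψ : ψ ∈ b
    · rw [dec_of_notMem D hM hb' (fun h3 => h1 ψ h3 hψ) hib', Nat.cast_zero, mul_zero]
    · rw [dec_of_notMem D hM hb hψ hib, Nat.cast_zero, mul_zero]
  subst hbb
  have h3 := H20.Ind.isInducedBlock_unique hind hind'
  exact hχ (h3 ▸ mem_blockOf_self χ)

/-- the duality relation on the section of `u` -/
theorem dual_rel [Fintype G] [Fintype (Subgroup.centralizer ({u} : Set G))] [Fintype (IrrCharacter G)]
    [DecidablePred (· ∈ B)] [DecidablePred (Part M B D)] (i j : Fin D.n) :
    ∑ χ ∈ Finset.univ.filter (· ∈ B), classInner (reg p (th D hM j)) (H78.BlkCount.trL u (χ : G → ℂ)) *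
        val (H78.BlkCount.trL u (χ : G → ℂ)) (D.E i) = if i = j ∧ Part M B D i then 1 else 0 := by
  classical
  have hwc : IsClassFunction _ (reg p (th D hM j)) := reg_class (th_class D hM j)
  have hww : reg p (reg p (th D hM j)) = reg p (th D hM j) := reg_reg _
  set w := reg p (th D hM j) with hw
  have hFc : IsClassFunction G (H78.BlkCount.lift u w) := lift_class u w
  have hin : ∀ χ : IrrCharacter G, classInner w (H78.BlkCount.trL u (χ : G → ℂ)) =
      classInner (H78.BlkCount.lift u w) (χ : G → ℂ) := by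
    intro χ
    unfold H78.BlkCount.lift
    rw [H18.CharInd.frobenius _ _ (isClassFunction_of_isIrr χ.2)]
    unfold classInner
    congr 1
    set x : Subgroup.centralizer ({u} : Set G) := ⟨u, Subgroup.mem_centralizer_singleton_iff.2 rfl⟩ with hx
    refine Fintype.sum_equiv (Equiv.mulLeft x) _ _ fun c => ?_
    show _ = w (x⁻¹ * (x * c)) * conj ((χ : G → ℂ) ((x * c : Subgroup.centralizer ({u} : Set G)) : G))
    rw [inv_mul_cancel_left]
    rfl
  simp_rw [hin]
  by_cases hP : Part M B D i
  · have h1 : ∑ χ ∈ Finset.univ.filter (· ∈ B), classInner (H78.BlkCount.lift u w) (χ : G → ℂ) *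
        val (H78.BlkCount.trL u (χ : G → ℂ)) (D.E i) = ∑ χ : IrrCharacter G, classInner (H78.BlkCount.lift u w) (χ : G → ℂ) *
        val (H78.BlkCount.trL u (χ : G → ℂ)) (D.E i) := by
      rw [Finset.sum_filter]
      refine Finset.sum_congr rfl fun χ _ => ?_
      split_ifs with hχ
      · rfl
      · rw [lam_zero_of_notMem hM hB hu D hχ hP, mul_zero]
    rw [h1]
    have h2 : H78.BlkCount.trL u (H78.BlkCount.lift u w) = fun g => ∑ χ : IrrCharacter G,
        classInner (H78.BlkCount.lift u w) (χ : G → ℂ) * H78.BlkCount.trL u (χ : G → ℂ) g := by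
      funext g
      rw [H78.BlkCount.trL_apply]
      conv_lhs => rw [mem_classFun_expand hFc]
      rw [Finset.sum_apply]
      rfl
    have h3 := congrArg (fun f => val f (D.E i)) h2
    beta_reduce at h3
    rw [val_sum_fun hM _ _ (fun χ : IrrCharacter G => trL_class u (isClassFunction_of_isIrr χ.2)) (D.idem i)] at h3
    rw [← h3]
    have h4 := lift_self hM.1 u hu hwc hww
    have h5 : val (H78.BlkCount.trL u (H78.BlkCount.lift u w)) (D.E i) = val (th D hM j) (D.E i) := by
      apply val_congr_reg D hM (trL_class u hFc) (th_class D hM j)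
      intro g hg
      have h6 := congrFun h4 g
      rw [reg_of hg] at h6
      rw [h6, hw, reg_of hg]
    rw [h5, val_th]
    by_cases hij : i = j
    · rw [if_pos hij.symm, if_pos ⟨hij, hP⟩]
    · rw [if_neg (Ne.symm hij), if_neg (fun h => hij h.1)]
  · rw [if_neg (fun h => hP h.2)]
    apply Finset.sum_eq_zero
    intro χ hχ
    rw [lam_zero_of_mem hM hB hu D (Finset.mem_filter.1 hχ).2 hP, mul_zero]

end sec

/-- the duality relation for the group itself -/
theorem dual_rel_one (hM : IsPModular p M) {B : Set (IrrCharacter G)} (hB : IsPBlock M B)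
    (D : Dat (ResF M) (KG M G)) [Fintype G] [Fintype (IrrCharacter G)]
    [DecidablePred (· ∈ B)] [DecidablePred (InB D B)] (i j : Fin D.n) :
    ∑ χ ∈ Finset.univ.filter (· ∈ B), classInner (reg p (th D hM j)) (χ : G → ℂ) *
        val (χ : G → ℂ) (D.E i) = if i = j ∧ InB D B i then 1 else 0 := by
  classical
  have hwc : IsClassFunction _ (reg p (th D hM j)) := reg_class (th_class D hM j)
  set w := reg p (th D hM j) with hw
  by_cases hP : InB D B i
  · have h1 : ∑ χ ∈ Finset.univ.filter (· ∈ B), classInner w (χ : G → ℂ) *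
        val (χ : G → ℂ) (D.E i) = ∑ χ : IrrCharacter G, classInner w (χ : G → ℂ) *
        val (χ : G → ℂ) (D.E i) := by
      rw [Finset.sum_filter]
      refine Finset.sum_congr rfl fun χ _ => ?_
      split_ifs with hχ
      · rfl
      · rw [val_E_of_notMem D hM hB hχ hP, mul_zero]
    rw [h1]
    have h2 : w = fun g => ∑ χ : IrrCharacter G, classInner w (χ : G → ℂ) * (χ : G → ℂ) g := by
      funext g
      conv_lhs => rw [mem_classFun_expand hwc]
      rw [Finset.sum_apply]
      rfl
    have h3 := congrArg (fun f => val f (D.E i)) h2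
    beta_reduce at h3
    rw [val_sum_fun hM _ _ (fun χ : IrrCharacter G => isClassFunction_of_isIrr χ.2) (D.idem i)] at h3
    rw [← h3]
    have h5 : val w (D.E i) = val (th D hM j) (D.E i) := by
      apply val_congr_reg D hM hwc (th_class D hM j)
      intro g hg
      rw [hw, reg_of hg]
    rw [h5, val_th]
    by_cases hij : i = j
    · rw [if_pos hij.symm, if_pos ⟨hij, hP⟩]
    · rw [if_neg (Ne.symm hij), if_neg (fun h => hij h.1)]
  · rw [if_neg (fun h => hP h.2)]
    apply Finset.sum_eq_zero
    intro χ hχ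
    rw [val_E_of_not D hM hB (Finset.mem_filter.1 hχ).2 hP, mul_zero]

end H20.PRat
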