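import Mathlib
import Cfsg.Agent.Lib.H20.PRat2

/-!
# Galois conjugation on a block: the number of fixed characters
-/

set_option autoImplicit false
set_option linter.unusedSectionVars false
set_option linter.unusedVariables false
set_option linter.style.haveILetI false

open Cfsg H20.Loc H20.GA H20.Blk H20.Orth H20.Defect H80.GA H80.GB H80.BR1 H84.RG H84.Star H18.CharBasic H18.CharOrtho
open scoped ComplexConjugate

universe u

namespace H20.PRat

open H20.BrT H78.BlkCount H78.Galois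

variable {M : Ideal AlgInt} [M.IsMaximal] {G : Type u} [Group G] [Finite G] {p : ℕ}

/-- conjugation by an element normalizing a subgroup -/
def cjC (C : Subgroup G) (t : G) (h : ∀ c, t * c * t⁻¹ ∈ C ↔ c ∈ C) : C ≃* C where
  toFun c := ⟨t * c * t⁻¹, (h c).2 c.2⟩
  invFun c := ⟨t⁻¹ * c * t, (h _).1 (by
    have h1 : t * (t⁻¹ * (c : G) * t) * t⁻¹ = c := by group
    rw [h1]; exact c.2)⟩
  left_inv c := by
    apply Subtype.ext
    show t⁻¹ * (t * (c : G) * t⁻¹) * t = c
    group
  right_inv c := by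
    apply Subtype.ext
    show t * (t⁻¹ * (c : G) * t) * t⁻¹ = c
    group
  map_mul' c d := by
    apply Subtype.ext
    show t * ((c : G) * d) * t⁻¹ = (t * c * t⁻¹) * (t * d * t⁻¹)
    group

theorem conj_mem_cent {u t : G} {k : ℕ} (hk : k.Coprime (Nat.card G)) (ht : t * u ^ k * t⁻¹ = u) (c : G) :
    t * c * t⁻¹ ∈ Subgroup.centralizer ({u} : Set G) ↔ c ∈ Subgroup.centralizer ({u} : Set G) := by
  rw [← centralizer_pow hk u]
  conv_lhs => rw [centralizer_pow hk u, Subgroup.mem_centralizer_singleton_iff, ← ht]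
  rw [Subgroup.mem_centralizer_singleton_iff]
  constructor
  · intro h
    have h1 : t * (c * u ^ k) * t⁻¹ = t * (u ^ k * c) * t⁻¹ := by
      calc t * (c * u ^ k) * t⁻¹ = t * c * t⁻¹ * (t * u ^ k * t⁻¹) := by group
        _ = t * u ^ k * t⁻¹ * (t * c * t⁻¹) := h
        _ = _ := by group
    have h2 := mul_right_cancel h1
    exact mul_left_cancel h2
  · intro h
    calc t * c * t⁻¹ * (t * u ^ k * t⁻¹) = t * (c * u ^ k) * t⁻¹ := by group
      _ = t * (u ^ k * c) * t⁻¹ := by rw [h]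
      _ = _ := by group

open Classical in
theorem sec_sum_eq [Fintype G] (hp : p.Prime) {u : G} (hu : ∃ k : ℕ, orderOf u = p ^ k)
    [Fintype (Subgroup.centralizer ({u} : Set G))] (f : G → ℂ) :
    ∑ g ∈ Finset.univ.filter (fun g : G => pPt p g = u), f g =
      ∑ c : Subgroup.centralizer ({u} : Set G), if p ∣ orderOf c then 0 else f (u * c) := by
  have h1 : ∑ c : Subgroup.centralizer ({u} : Set G), (if p ∣ orderOf c then 0 else f (u * c)) =
      ∑ c ∈ Finset.univ.filter (fun c : Subgroup.centralizer ({u} : Set G) => ¬ p ∣ orderOf c), f (u * c) := by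
    rw [Finset.sum_filter]
    refine Finset.sum_congr rfl fun c _ => ?_
    by_cases h : p ∣ orderOf c
    · rw [if_pos h, if_neg (not_not.2 h)]
    · rw [if_neg h, if_pos h]
  rw [h1]
  symm
  refine Finset.sum_nbij (fun c => u * (c : G)) ?_ ?_ ?_ (fun _ _ => rfl)
  · intro c hc
    rw [Finset.mem_filter] at hc ⊢
    refine ⟨Finset.mem_univ _, pPt_eq hp ⟨c, rfl, ?_, hu, ?_⟩⟩
    · exact (Subgroup.mem_centralizer_singleton_iff.1 c.2).symm
    · rw [Subgroup.orderOf_coe]; exact hc.2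
  · intro c _ d _ h
    exact Subtype.ext (mul_left_cancel h)
  · intro g hg
    rw [Finset.mem_coe, Finset.mem_filter] at hg
    obtain ⟨y, h1, h2, h3, h4⟩ := pPt_spec hp g
    rw [hg.2] at h1 h2
    refine ⟨⟨y, Subgroup.mem_centralizer_singleton_iff.2 h2.symm⟩, ?_, h1⟩
    rw [Finset.mem_coe, Finset.mem_filter]
    refine ⟨Finset.mem_univ _, ?_⟩
    rw [← Subgroup.orderOf_coe]
    exact h4

variable (hM : IsPModular p M) {B : Set (IrrCharacter G)} (hB : IsPBlock M B) {k : ℕ}
  (hk : k.Coprime (Nat.card G)) (hkr : ∀ s : G, IsPRegular p s → s ^ k = s)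
include hM hB hk hkr

open Classical in
theorem sec_nat [Fintype G] [Fintype (IrrCharacter G)] {u : G} (hu : ∃ k : ℕ, orderOf u = p ^ k) :
    ∃ m : ℕ, ∑ g ∈ Finset.univ.filter (fun g : G => pPt p g = u),
      ∑ χ ∈ Finset.univ.filter (· ∈ B), (χ : G → ℂ) (g ^ k) * conj ((χ : G → ℂ) g) = m := by
  letI := Fintype.ofFinite (Subgroup.centralizer ({u} : Set G))
  by_cases ht : ∃ t : G, t * u ^ k * t⁻¹ = u
  · obtain ⟨t, ht⟩ := ht
    set φ := cjC (Subgroup.centralizer ({u} : Set G)) t (conj_mem_cent hk ht) with hφ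
    obtain ⟨D⟩ := exists_dat' (G := Subgroup.centralizer ({u} : Set G)) hM
    have h1 := gen_sum D hM φ (Finset.univ.filter (· ∈ B)) (fun χ : IrrCharacter G => H78.BlkCount.trL u (χ : G → ℂ))
      (fun χ => trL_class u (isClassFunction_of_isIrr χ.2)) (Part M B D) (dual_rel hM hB hu D)
    rw [sec_sum_eq hM.1 hu]
    refine ⟨Nat.card (Subgroup.centralizer ({u} : Set G)) * ∑ i ∈ Finset.univ.filter (Part M B D), D.rk (mp φ (D.E i)) i, ?_⟩
    push_cast
    rw [← h1]
    refine Finset.sum_congr rfl fun c _ => ?_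
    by_cases hc : p ∣ orderOf c
    · rw [if_pos hc, if_pos hc]
    · rw [if_neg hc, if_neg hc]
      refine Finset.sum_congr rfl fun χ _ => ?_
      rw [H78.BlkCount.trL_apply, H78.BlkCount.trL_apply]
      congr 1
      have hcu : Commute u (c : G) := (Subgroup.mem_centralizer_singleton_iff.1 c.2).symm
      rw [hcu.mul_pow, hkr (c : G) (by unfold IsPRegular; rwa [Subgroup.orderOf_coe]),
        ← isClassFunction_of_isIrr χ.2 (u ^ k * (c : G)) t]
      have h7 : t * (u ^ k * (c : G)) * t⁻¹ = u * (t * c * t⁻¹) := by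
        calc t * (u ^ k * (c : G)) * t⁻¹ = (t * u ^ k * t⁻¹) * (t * c * t⁻¹) := by group
          _ = u * (t * c * t⁻¹) := by rw [ht]
      rw [h7]
      rfl
  · refine ⟨0, ?_⟩
    rw [Nat.cast_zero]
    apply Finset.sum_eq_zero
    intro g hg
    obtain ⟨y, h1, h2, h3, h4⟩ := pPt_spec hM.1 g
    rw [(Finset.mem_filter.1 hg).2] at h1 h2
    have hpk : IsPPart p (g ^ k) (u ^ k) := by
      refine ⟨y ^ k, ?_, h2.pow_pow _ _, ?_, ?_⟩
      · rw [← h1, h2.mul_pow]
      · obtain ⟨a, ha⟩ := hu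
        have h5 : orderOf (u ^ k) ∣ p ^ a := ha ▸ orderOf_pow_dvd k
        obtain ⟨b, -, hb⟩ := (Nat.dvd_prime_pow hM.1).1 h5
        exact ⟨b, hb⟩
      · intro h; exact h4 (h.trans (orderOf_pow_dvd k))
    have h6 := H19.Second.block_orth hM (g ^ k) g (u ^ k) u hpk ⟨y, h1, h2, hu, h4⟩
      (fun h => ht (by
        obtain ⟨c, hc⟩ := isConj_iff.1 h
        exact ⟨c, hc⟩)) B hB
    rw [finsum_mem_eq_finite_toFinset_sum _ (Set.toFinite B)] at h6
    rw [← h6]
    refine Finset.sum_congr (by ext χ; simp) fun χ _ => ?_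
    rw [char_inv (isCharacter_of_isIrr χ.2)]

open Classical in
theorem sec_one [Fintype G] [Fintype (IrrCharacter G)] :
    ∑ g ∈ Finset.univ.filter (fun g : G => pPt p g = 1),
      ∑ χ ∈ Finset.univ.filter (· ∈ B), (χ : G → ℂ) (g ^ k) * conj ((χ : G → ℂ) g) =
        Nat.card G * blockRank p B := by
  obtain ⟨D⟩ := exists_dat' (G := G) hM
  have h1 := gen_sum D hM (MulEquiv.refl G) (Finset.univ.filter (· ∈ B)) (fun χ : IrrCharacter G => (χ : G → ℂ))
      (fun χ => isClassFunction_of_isIrr χ.2) (InB D B) (dual_rel_one hM hB D)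
  have h2 : ∀ i, (D.rk (mp (MulEquiv.refl G) (D.E i)) i : ℂ) = 1 := by
    intro i
    have h3 : mp (MulEquiv.refl G) (D.E i) = D.E i := H80.GA.ext' fun x => by rw [coeff_mp]; rfl
    rw [h3, ← val_th_eq D hM i (D.idem i), val_th, if_pos rfl]
  rw [Finset.sum_congr rfl fun i _ => h2 i, Finset.sum_const, nsmul_eq_mul, mul_one] at h1
  have h4 : (Finset.univ.filter (InB D B)).card = blockRank p B := by
    rw [blockRank_eq D hM hB, Fintype.card_subtype]
  rw [h4] at h1
  rw [← h1, Finset.sum_filter]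
  refine Finset.sum_congr rfl fun g _ => ?_
  by_cases hg : p ∣ orderOf g
  · rw [if_pos hg, if_neg]
    intro h
    obtain ⟨y, h5, -, -, h6⟩ := pPt_spec hM.1 g
    rw [h, one_mul] at h5
    exact h6 (h5 ▸ hg)
  · rw [if_neg hg, if_pos (pPt_eq hM.1 ⟨g, one_mul g, Commute.one_left g, ⟨0, by simp⟩, hg⟩)]
    refine Finset.sum_congr rfl fun χ _ => ?_
    rw [hkr g hg]
    rfl

/-- **The number of fixed characters of a block is at least its rank.** -/
theorem count_ge : blockRank p B ≤ Nat.card {χ : IrrCharacter G // χ ∈ B ∧ ∀ g : G, (χ : G → ℂ) (g ^ k) = (χ : G → ℂ) g} := by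
  classical
  letI := Fintype.ofFinite G
  letI := Fintype.ofFinite (IrrCharacter G)
  have hG : (Nat.card G : ℂ) ≠ 0 := by exact_mod_cast (Nat.card_pos (α := G)).ne'
  have hm : ∀ u : G, ∃ m : ℕ, ∑ g ∈ Finset.univ.filter (fun g : G => pPt p g = u),
      ∑ χ ∈ Finset.univ.filter (· ∈ B), (χ : G → ℂ) (g ^ k) * conj ((χ : G → ℂ) g) = m := by
    intro u
    by_cases hu : ∃ k : ℕ, orderOf u = p ^ k
    · exact sec_nat hM hB hk hkr hu
    · refine ⟨0, ?_⟩
      rw [Finset.filter_false_of_mem, Finset.sum_empty, Nat.cast_zero]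
      intro g _ h
      obtain ⟨y, h1, h2, h3, h4⟩ := pPt_spec hM.1 g
      exact hu (h ▸ h3)
  choose m hm using hm
  have h1 : (Nat.card G : ℂ) * Nat.card {χ : IrrCharacter G // χ ∈ B ∧ ∀ g : G, (χ : G → ℂ) (g ^ k) = (χ : G → ℂ) g} =
      ((∑ u : G, m u : ℕ) : ℂ) := by
    push_cast
    rw [← Finset.sum_congr rfl fun u _ => hm u]
    rw [Finset.sum_fiberwise (s := Finset.univ) (g := fun g : G => pPt p g), Finset.sum_comm]
    have h2 : ∀ χ : IrrCharacter G, ∑ g : G, (χ : G → ℂ) (g ^ k) * conj ((χ : G → ℂ) g) =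
        Nat.card G * (if ∀ g : G, (χ : G → ℂ) (g ^ k) = (χ : G → ℂ) g then 1 else 0) := by
      intro χ
      have h3 : classInner (powIrr hk χ : G → ℂ) (χ : G → ℂ) =
          if ∀ g : G, (χ : G → ℂ) (g ^ k) = (χ : G → ℂ) g then 1 else 0 := by
        split_ifs with h
        · have h4 : (powIrr hk χ : G → ℂ) = (χ : G → ℂ) := funext h
          rw [h4]
          exact inner_irr_self χ.2
        · apply inner_irr_ne (powIrr hk χ).2 χ.2
          intro h5
          exact h fun g => congrFun h5 g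
      rw [← h3]
      unfold classInner
      rw [← mul_assoc, mul_inv_cancel₀ hG, one_mul]
      rfl
    rw [Finset.sum_congr rfl fun χ _ => h2 χ, ← Finset.mul_sum]
    congr 1
    rw [Finset.sum_boole, Finset.filter_filter, Nat.card_eq_fintype_card, Fintype.card_subtype]
  have h2 : (m 1 : ℂ) = Nat.card G * blockRank p B := by rw [← hm 1, sec_one hM hB hk hkr]
  have h3 : m 1 = Nat.card G * blockRank p B := by exact_mod_cast h2
  have h4 : Nat.card G * Nat.card {χ : IrrCharacter G // χ ∈ B ∧ ∀ g : G, (χ : G → ℂ) (g ^ k) = (χ : G → ℂ) g} =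
      ∑ u : G, m u := by exact_mod_cast h1
  have h5 : m 1 ≤ ∑ u : G, m u := Finset.single_le_sum (fun _ _ => Nat.zero_le _) (Finset.mem_univ 1)
  rw [← h4, h3] at h5
  exact Nat.le_of_mul_le_mul_left h5 Nat.card_pos

end H20.PRat
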