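import Mathlib
import Cfsg.Agent.Lib.H20.PRat3

/-!
# Galois conjugation on a block: a generator of the Galois group
-/

set_option autoImplicit false
set_option linter.unusedSectionVars false
set_option linter.unusedVariables false
set_option linter.style.haveILetI false

open Cfsg

universe u

namespace H20.PRat

theorem exists_gen {n p : ℕ} (hn : n ≠ 0) (hp : p.Prime) (h2 : p ≠ 2) :
    ∃ k0 : ℕ, k0.Coprime n ∧ k0 ≡ 1 [MOD n / p ^ n.factorization p] ∧
      ∀ k : ℕ, k.Coprime n → k ≡ 1 [MOD n / p ^ n.factorization p] → ∃ j : ℕ, k ≡ k0 ^ j [MOD n] := by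
  set a := n.factorization p with ha
  set m := n / p ^ a with hm
  have hnm : p ^ a * m = n := Nat.ordProj_mul_ordCompl_eq_self n p
  have hcop : (p ^ a).Coprime m := (Nat.coprime_ordCompl hp hn).pow_left a
  haveI : NeZero (p ^ a) := ⟨(pow_pos hp.pos a).ne'⟩
  haveI := ZMod.isCyclic_units_of_prime_pow p hp h2 a
  obtain ⟨g, hg⟩ := IsCyclic.exists_generator (α := (ZMod (p ^ a))ˣ)
  obtain ⟨k0, h3, h4⟩ := Nat.chineseRemainder hcop ((g : ZMod (p ^ a)).val) 1
  have hk0 : ((k0 : ℕ) : ZMod (p ^ a)) = (g : ZMod (p ^ a)) := by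
    rw [(ZMod.natCast_eq_natCast_iff _ _ _).2 h3, ZMod.natCast_val, ZMod.cast_id]
  have hc1 : k0.Coprime (p ^ a) := by
    rw [← ZMod.isUnit_iff_coprime, hk0]
    exact g.isUnit
  have hc2 : k0.Coprime m := by
    have := h4.gcd_eq
    rw [Nat.gcd_one_left] at this
    exact this
  refine ⟨k0, by rw [← hnm]; exact Nat.Coprime.mul_right hc1 hc2, h4, ?_⟩
  intro k hk hk1
  have hkp : k.Coprime (p ^ a) := by
    rw [← hnm] at hk
    exact Nat.Coprime.coprime_mul_right_right hk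
  obtain ⟨j, hj⟩ := (Submonoid.mem_powers_iff _ _).1 (mem_powers_iff_mem_zpowers.2 (hg (ZMod.unitOfCoprime k hkp)))
  refine ⟨j, ?_⟩
  rw [← hnm, ← Nat.modEq_and_modEq_iff_modEq_mul hcop]
  constructor
  · rw [← ZMod.natCast_eq_natCast_iff]
    have h5 := congrArg (Units.val) hj
    rw [Units.val_pow_eq_pow_val, ZMod.coe_unitOfCoprime] at h5
    rw [← h5, Nat.cast_pow, hk0]
  · have h6 := h4.pow j
    rw [one_pow] at h6
    exact hk1.trans h6.symm

theorem reg_pow_self {G : Type*} [Group G] [Finite G] {p : ℕ} (hp : p.Prime) {k : ℕ}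
    (hk : k ≡ 1 [MOD Nat.card G / p ^ (Nat.card G).factorization p]) {s : G} (hs : IsPRegular p s) : s ^ k = s := by
  have h1 : orderOf s ∣ Nat.card G / p ^ (Nat.card G).factorization p := by
    have h2 : orderOf s ∣ p ^ (Nat.card G).factorization p * (Nat.card G / p ^ (Nat.card G).factorization p) := by
      rw [Nat.ordProj_mul_ordCompl_eq_self]
      exact orderOf_dvd_natCard s
    refine Nat.Coprime.dvd_of_dvd_mul_left ?_ h2
    exact Nat.Coprime.pow_right _ ((Nat.Prime.coprime_iff_not_dvd hp).2 hs).symm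
  have h3 : s ^ k = s ^ 1 := (pow_inj_mod (x := s)).2 (hk.of_dvd h1)
  rw [h3, pow_one]

theorem main {G : Type*} [Group G] [Finite G] (p : ℕ) (hp : p.Prime) (hodd : p ≠ 2)
    (M : Ideal Cfsg.AlgInt) (hM : Cfsg.IsPModular p M) (B : Set (Cfsg.IrrCharacter G)) (hB : Cfsg.IsPBlock M B) :
    Cfsg.blockRank p B ≤ Nat.card {χ : Cfsg.IrrCharacter G // χ ∈ B ∧ ∀ k : ℕ, Nat.Coprime k (Nat.card G) →
      k ≡ 1 [MOD Nat.card G / p ^ (Nat.card G).factorization p] → ∀ g : G, (χ : G → ℂ) (g ^ k) = (χ : G → ℂ) g} := by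
  haveI : M.IsMaximal := hM.2.1
  obtain ⟨k0, h1, h2, h3⟩ := exists_gen (n := Nat.card G) Nat.card_pos.ne' hp hodd
  refine (count_ge hM hB h1 (fun s hs => reg_pow_self hp h2 hs)).trans (le_of_eq ?_)
  apply Nat.card_congr
  refine Equiv.subtypeEquivRight fun χ => and_congr_right fun _ => ⟨fun h k hk hk1 g => ?_, fun h g => h k0 h1 h2 g⟩
  obtain ⟨j, hj⟩ := h3 k hk hk1
  have h4 : g ^ k = g ^ (k0 ^ j) := (pow_inj_mod (x := g)).2 (hj.of_dvd (orderOf_dvd_natCard g))
  rw [h4]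
  clear hj h4
  induction j generalizing g with
  | zero => rw [pow_zero, pow_one]
  | succ j ih =>
    rw [pow_succ, pow_mul, h, ih]

end H20.PRat
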