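import Mathlib
import Cfsg.Agent.Lib.H5.Q8T1

/-! Quaternion Sylow 2-subgroups of order 8: fusion of the subgroups of order 4 (S0950). -/

set_option autoImplicit false
set_option linter.unusedSectionVars false
set_option linter.style.haveILetI false
open Subgroup hiding mem_normalizer_iff'
open H38.Basic H62.Q8Group
open scoped Pointwise

universe u

namespace H20.Q8Fus

variable {G : Type u} [Group G] [Finite G]

theorem exists_gen (hQ8 : HasQ8 G) (S : Sylow 2 G) {A : Subgroup G} (hA : A ≤ S)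
    (hA4 : Nat.card A = 4) : ∃ a ∈ A, orderOf a = 4 ∧ Subgroup.zpowers a = A := by
  classical
  letI := Fintype.ofFinite A
  obtain ⟨a, ha, ha2⟩ : ∃ a ∈ A, a ^ 2 ≠ 1 := by
    by_contra! hno
    have h1 : ∀ x y : A, x ≠ 1 → y ≠ 1 → x = y := by
      intro x y hx hy
      apply Subtype.ext
      exact hQ8.unique S.2 (hA x.2) (hA y.2) (hno x x.2) (hno y y.2)
        (fun h => hx (Subtype.ext h)) (fun h => hy (Subtype.ext h))
    have h2 : Fintype.card A ≤ 2 := by
      by_cases h3 : ∃ x : A, x ≠ 1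
      · obtain ⟨x, hx⟩ := h3
        have h4 : (Finset.univ : Finset A) ⊆ {1, x} := by
          intro y _
          by_cases hy : y = 1
          · simp [hy]
          · simp [h1 y x hy hx]
        exact le_trans (Finset.card_le_card h4) Finset.card_le_two
      · push Not at h3
        have h4 : (Finset.univ : Finset A) ⊆ {1} := by
          intro y _; simp [h3 y]
        exact le_trans (Finset.card_le_card h4) (by simp)
    rw [← Nat.card_eq_fintype_card, hA4] at h2
    omega
  have h4 : a ^ 4 = 1 := hQ8.pow_four S.2 (hA ha)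
  have ho : orderOf a = 4 := orderOf_eq_prime_pow (p := 2) (n := 1) (by simpa using ha2) (by simpa using h4)
  refine ⟨a, ha, ho, ?_⟩
  apply Subgroup.eq_of_le_of_card_ge (Subgroup.zpowers_le.2 ha)
  rw [hA4, Nat.card_zpowers, ho]

/-- S0950 -/
theorem main (S : Sylow 2 G) (e : (S : Subgroup G) ≃* QuaternionGroup 2)
    (hnc : ∀ N : Subgroup G, N.Normal → ¬ Subgroup.IsComplement' N (S : Subgroup G))
    (A B : Subgroup G) (hA : A ≤ S) (hB : B ≤ S) (hA4 : Nat.card A = 4) (hB4 : Nat.card B = 4) :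
    ∃ n ∈ Subgroup.normalizer ((S : Subgroup G) : Set G), B = A.map (MulAut.conj n).toMonoidHom := by
  haveI : Fact (Nat.Prime 2) := ⟨Nat.prime_two⟩
  have hQ8 := hasQ8_of S ⟨e⟩
  rcases H5.Q8T1.fusion S ⟨e⟩ with h | hconj
  · exact absurd (H2.NPC.isComplement'_residual_of_hasNPC h S) (hnc _ inferInstance)
  obtain ⟨a, ha, hao, haA⟩ := exists_gen hQ8 S hA hA4
  obtain ⟨b, hb, hbo, hbB⟩ := exists_gen hQ8 S hB hB4
  obtain ⟨g, hg⟩ := isConj_iff.1 (hconj a b hao hbo)
  have hAB : A.map (MulAut.conj g).toMonoidHom = B := by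
    rw [← haA, ← hbB, MonoidHom.map_zpowers]
    show Subgroup.zpowers (g * a * g⁻¹) = _
    rw [hg]
  -- S normalizes A and B
  have hnorm : ∀ {x : G}, x ∈ (S : Subgroup G) → ∀ s ∈ (S : Subgroup G),
      s ∈ Subgroup.normalizer ((Subgroup.zpowers x : Subgroup G) : Set G) := by
    intro x hx s hs
    rw [H38.Basic.mem_normalizer_iff', MonoidHom.map_zpowers]
    show Subgroup.zpowers (s * x * s⁻¹) = _
    rcases H5.Q8T1.conj_in e hx hs with h | h
    · rw [h]
    · rw [h, Subgroup.zpowers_inv]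
  set H := Subgroup.normalizer (B : Set G) with hH
  have hSH : (S : Subgroup G) ≤ H := by
    intro s hs
    rw [hH, ← hbB]
    exact hnorm (hB hb) s hs
  have hSgH : (S : Subgroup G).map (MulAut.conj g).toMonoidHom ≤ H := by
    rintro _ ⟨s, hs, rfl⟩
    have h1 := hnorm (hA ha) s hs
    rw [haA, H38.Basic.mem_normalizer_iff'] at h1
    rw [hH, H38.Basic.mem_normalizer_iff']
    show B.map (MulAut.conj (g * s * g⁻¹)).toMonoidHom = B
    rw [← hAB, conj_conj]
    have h2 : g * s * g⁻¹ * g = g * s := by group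
    rw [h2, ← conj_conj, h1]
  have hS1 : IsSyl 2 (S : Subgroup G) H := (isSyl_sylow S).of_le hSH le_top
  have hS2 : IsSyl 2 ((S : Subgroup G).map (MulAut.conj g).toMonoidHom) H := by
    refine IsSyl.of_le (K := ⊤) ?_ hSgH le_top
    exact (isSyl_sylow S).conj_mem (g := g) (Subgroup.mem_top g)
  obtain ⟨n, hn, hnS⟩ := hS2.exists_conj_eq hS1
  rw [conj_conj] at hnS
  refine ⟨n * g, H38.Basic.mem_normalizer_iff'.2 hnS, ?_⟩
  rw [← conj_conj, hAB]
  rw [hH, H38.Basic.mem_normalizer_iff'] at hn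
  exact hn.symm

end H20.Q8Fus
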