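import Mathlib
import Cfsg.Prelude.Def_Blocks
import Cfsg.Agent.Lib.H20.Klein
import Cfsg.Agent.Lib.H20.Homo2
import Cfsg.Agent.Lib.H20.PC
import Cfsg.Agent.Lib.H5.Q8T1
import Cfsg.Agent.Lib.H5.ZStar
import Cfsg.Agent.Lib.H81.CentralVal

/-! Quaternion Sylow 2-subgroups of order 8: the principal block has 7 characters (S0951). -/

set_option autoImplicit false
set_option linter.unusedSectionVars false
set_option linter.unusedVariables false
set_option linter.style.haveILetI false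
open Cfsg H20.Loc H20.GA H20.Blk H20.DefGrp H20.Defect H20.Orth H20.Height H20.NPC H20.PPart
  H20.NormQ H20.Col H20.Col2 H20.DefZero H20.Klein
open H20.Homo2 (Bf mem_Bf sum_Bf)
open H62.Q8Group
open scoped ComplexConjugate Pointwise

universe u

namespace H20.Q8Seven

section basic
variable {G : Type u} [Group G] [Finite G] {M : Ideal AlgInt}

theorem const_sec (hM : IsPModular 2 M) (h : HasQ8 G) (hc : Conj4 G) {x : G} (hx : orderOf x = 4)
    {χ : IrrCharacter G} (hχ : χ ∈ principalBlock M G) {g : G} (hg : 4 ∣ orderOf g) :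
    (χ : G → ℂ) g = (χ : G → ℂ) x := by
  obtain ⟨y, k, hyk, hcy, hy, hk⟩ := H19.Second.exists_isPPart Nat.prime_two g
  have hy4 := (H62.Q8Sec.sec_iff h hyk hcy hy hk).mp hg
  have hkodd : Odd (orderOf k) := by
    rw [← Nat.not_even_iff_odd, even_iff_two_dvd]; exact hk
  have h1 := H5.ZStar6.pbconst G M hM y hy k (h.mem_core hy4 hkodd hcy) χ hχ
  rw [← hyk, h1]
  obtain ⟨c, hc'⟩ := isConj_iff.1 (hc x y hx hy4)
  rw [← hc']
  exact irr_class χ x c

theorem index_core (h : HasQ8 G) {x : G} (hx : orderOf x = 4) :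
    (∃ k : ℕ, (pPrimeCore 2 (Cen x)).index = 2 ^ k) ∧ (Nat.card (Cen x)).factorization 2 = 2 := by
  obtain ⟨K, hKn, hKc, hK⟩ := h.cent4 hx
  have hodd : ¬ 2 ∣ Nat.card K := by
    intro hd
    haveI : Fact (Nat.Prime 2) := ⟨Nat.prime_two⟩
    obtain ⟨y, hy⟩ := exists_prime_orderOf_dvd_card' 2 hd
    have h1 := (hK y.1).mp y.2
    rw [Subgroup.orderOf_coe, hy] at h1
    exact absurd h1 (by decide)
  constructor
  · have h3 : K ≤ pPrimeCore 2 (Cen x) := H1.Cores.le_pPrimeCore hKn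
      (((Nat.Prime.coprime_iff_not_dvd Nat.prime_two).2 hodd).symm)
    have h4 : (pPrimeCore 2 (Cen x)).index ∣ K.index := Subgroup.index_dvd_of_le h3
    have h5 : K.index = 2 ^ 2 := by
      have h6 := Subgroup.card_mul_index K
      have h7 : Nat.card K * K.index = Nat.card K * 2 ^ 2 := by
        rw [h6, ← hKc]; ring
      exact Nat.eq_of_mul_eq_mul_left Nat.card_pos h7
    rw [h5] at h4
    obtain ⟨k, _, hk⟩ := (Nat.dvd_prime_pow Nat.prime_two).1 h4
    exact ⟨k, hk⟩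
  · have h8 : Nat.card (Cen x) = 2 ^ 2 * Nat.card K := by rw [← hKc]; norm_num
    rw [h8, Nat.factorization_mul (by norm_num) Nat.card_pos.ne', Nat.factorization_pow,
      Finsupp.add_apply, Finsupp.smul_apply, Nat.prime_two.factorization_self,
      Nat.factorization_eq_zero_of_not_dvd hodd]
    rfl

theorem sum_four (hM : IsPModular 2 M) (h : HasQ8 G) {x : G} (hx : orderOf x = 4) :
    ∑ χ ∈ Bf M G, (χ : G → ℂ) x * conj ((χ : G → ℂ) x) = 4 := by
  classical
  letI := Fintype.ofFinite (IrrCharacter G)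
  have h1 := index_core h hx
  have h2 := column_self hM (x := x) ⟨2, by rw [hx]; norm_num⟩ h1.1
  rw [h1.2] at h2
  rw [sum_Bf, h2]; norm_num

/-- regular inner product -/
noncomputable def r [Fintype G] (χ ψ : IrrCharacter G) : ℂ :=
  classInner (reg 2 (χ : G → ℂ)) (ψ : G → ℂ)

theorem r_eq [Fintype G] (χ ψ : IrrCharacter G) :
    r χ ψ = (Nat.card G : ℂ)⁻¹ * ∑ g : G, reg 2 (fun g => (χ : G → ℂ) g * conj ((ψ : G → ℂ) g)) g := by
  rw [r, classInner]
  congr 1
  refine Finset.sum_congr rfl fun g _ => ?_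
  by_cases hg : 2 ∣ orderOf g
  · rw [reg_not hg, reg_not hg, zero_mul]
  · rw [reg_of hg, reg_of hg]

theorem r_symm [Fintype G] (χ ψ : IrrCharacter G) : conj (r χ ψ) = r ψ χ := by
  rw [r_eq, r_eq, map_mul, map_inv₀, Complex.conj_natCast, map_sum]
  congr 1
  refine Finset.sum_congr rfl fun g _ => ?_
  by_cases hg : 2 ∣ orderOf g
  · rw [reg_not hg, reg_not hg, map_zero]
  · rw [reg_of hg, reg_of hg, map_mul, Complex.conj_conj, mul_comm]

theorem r_sum [Fintype G] (hM : IsPModular 2 M) {χ : IrrCharacter G} (hχ : χ ∈ Bf M G) :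
    ∑ ψ ∈ Bf M G, r χ ψ * r ψ χ = r χ χ := by
  classical
  haveI := pm_isPrime hM
  letI := Fintype.ofFinite (IrrCharacter G)
  have h1 : classInner (reg 2 (χ : G → ℂ)) (reg 2 (χ : G → ℂ)) = r χ χ := by
    rw [r, classInner, classInner]
    congr 1
    refine Finset.sum_congr rfl fun g _ => ?_
    by_cases hg : 2 ∣ orderOf g
    · rw [reg_not hg, zero_mul, zero_mul]
    · rw [reg_of hg]
  rw [← h1, H18.CharOrtho.parseval (reg_class (irr_class χ))]
  have h2 : ∀ ψ : IrrCharacter G, ψ ∉ Bf M G → r χ ψ = 0 := by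
    intro ψ hψ
    apply inner_reg_eq_zero hM
    intro hs
    apply hψ
    rw [mem_Bf] at hχ ⊢
    exact sameBlock_trans hχ hs
  symm
  rw [← Finset.sum_subset (Finset.subset_univ (Bf M G))]
  · refine Finset.sum_congr rfl fun ψ _ => ?_
    rw [← r_symm χ ψ]; rfl
  · intro ψ _ hψ
    have := h2 ψ hψ
    rw [r] at this
    rw [this, zero_mul]

/-- decomposition of the inner product -/
theorem inner_decomp [Fintype G] (hM : IsPModular 2 M) (h : HasQ8 G) (hc : Conj4 G) {z : G}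
    (hz : orderOf z = 2) (hzc : ∀ c, z * c = c * z) {x : G} (hx : orderOf x = 4)
    {χ ψ : IrrCharacter G} (hχ : χ ∈ Bf M G) (hψ : ψ ∈ Bf M G) {a b : ℂ}
    (ha : ∀ g, (χ : G → ℂ) (z * g) = a * (χ : G → ℂ) g)
    (hb : ∀ g, (ψ : G → ℂ) (z * g) = b * (ψ : G → ℂ) g) :
    classInner (χ : G → ℂ) (ψ : G → ℂ) = (1 + a * conj b) * r χ ψ +
      (χ : G → ℂ) x * conj ((ψ : G → ℂ) x) / 4 := by
  classical
  set F : G → ℂ := fun g => (χ : G → ℂ) g * conj ((ψ : G → ℂ) g) with hF
  have hzz : z * z = 1 := H62.Q8Flat.z_sq hz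
  set F4 : G → ℂ := fun g => if 4 ∣ orderOf g then F g else 0 with hF4
  have hsplit : ∀ g, F g = reg 2 F g + reg 2 F (z * g) * (a * conj b) + F4 g := by
    intro g
    have hoz : ∀ y : G, Odd (orderOf y) → orderOf (z * y) = 2 * orderOf y := fun y hy =>
      H62.Q8Flat.orderOf_z_mul hz hzc hy
    have hFz : ∀ g, F (z * g) = (a * conj b) * F g := by
      intro g
      simp only [hF]
      rw [ha, hb, map_mul]; ring
    rcases H62.Q8Flat.tri h hz hzc g with h1 | h1 | h1
    · have e1 : ¬ 2 ∣ orderOf g := by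
        rw [← even_iff_two_dvd, Nat.not_even_iff_odd]; exact h1
      have e2 : 2 ∣ orderOf (z * g) := by rw [hoz g h1]; exact Dvd.intro _ rfl
      have e3 : ¬ 4 ∣ orderOf g := fun h4 => e1 (dvd_trans (by norm_num) h4)
      rw [reg_of e1, reg_not e2, hF4]
      simp [e3]
    · have e1 : ¬ 2 ∣ orderOf (z * g) := by
        rw [← even_iff_two_dvd, Nat.not_even_iff_odd]; exact h1
      have e0 : z * (z * g) = g := by rw [← mul_assoc, hzz, one_mul]
      have e4 := hoz _ h1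
      rw [e0] at e4
      have e2 : 2 ∣ orderOf g := by rw [e4]; exact Dvd.intro _ rfl
      have e3 : ¬ 4 ∣ orderOf g := by
        rw [e4]
        intro h4
        apply e1
        have : 2 * 2 ∣ 2 * orderOf (z * g) := by rw [show 2 * 2 = 4 from rfl]; exact h4
        exact Nat.dvd_of_mul_dvd_mul_left (by norm_num) this
      rw [reg_not e2, reg_of e1, hF4]
      have := hFz (z * g)
      rw [e0] at this
      simp only [e3, if_false]
      rw [this]; ring
    · have e2 : 2 ∣ orderOf g := dvd_trans (by norm_num) h1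
      have e5 : 2 ∣ orderOf (z * g) := by
        by_contra hno
        have hodd : Odd (orderOf (z * g)) := by
          rw [← Nat.not_even_iff_odd, even_iff_two_dvd]; exact hno
        have e4 := hoz _ hodd
        have e0 : z * (z * g) = g := by rw [← mul_assoc, hzz, one_mul]
        rw [e0] at e4
        rw [e4] at h1
        apply hno
        have : 2 * 2 ∣ 2 * orderOf (z * g) := by rw [show 2 * 2 = 4 from rfl]; exact h1
        exact Nat.dvd_of_mul_dvd_mul_left (by norm_num) this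
      rw [reg_not e2, reg_not e5, hF4]
      simp [h1]
  have h4 : (Nat.card G : ℂ)⁻¹ * ∑ g : G, F4 g = (χ : G → ℂ) x * conj ((ψ : G → ℂ) x) / 4 := by
    apply H62.Q8Block.sum_sec h hc
    · intro g hg
      rw [hF4]
      simp only [hg, if_true, hF]
      rw [const_sec hM h hc hx (mem_Bf.1 hχ) hg, const_sec hM h hc hx (mem_Bf.1 hψ) hg]
    · intro g hg
      rw [hF4]; simp [hg]
  have h5 : ∑ g : G, reg 2 F (z * g) = ∑ g : G, reg 2 F g :=
    Equiv.sum_comp (Equiv.mulLeft z) (reg 2 F)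
  rw [classInner, ← h4, r_eq]
  rw [show (fun g => (χ : G → ℂ) g * conj ((ψ : G → ℂ) g)) = F from rfl]
  have h6 : ∑ g : G, (χ : G → ℂ) g * conj ((ψ : G → ℂ) g) =
      ∑ g : G, (reg 2 F g + reg 2 F (z * g) * (a * conj b) + F4 g) :=
    Finset.sum_congr rfl fun g _ => hsplit g
  rw [h6, Finset.sum_add_distrib, Finset.sum_add_distrib, ← Finset.sum_mul, h5]
  ring

end basic

section quot
variable {G : Type u} [Group G] [Finite G] {M : Ideal AlgInt}

theorem mem_zpowers_iff_of_two {z : G} (hz : orderOf z = 2) {g : G} :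
    g ∈ Subgroup.zpowers z ↔ g = 1 ∨ g = z := by
  have hzz : z * z = 1 := by rw [← pow_two, ← hz]; exact pow_orderOf_eq_one z
  constructor
  · intro hg
    obtain ⟨k, rfl⟩ := Subgroup.mem_zpowers_iff.1 hg
    rcases Int.even_or_odd k with ⟨m, rfl⟩ | ⟨m, rfl⟩
    · left; rw [← two_mul, zpow_mul, zpow_two, hzz, one_zpow]
    · right; rw [zpow_add, zpow_mul, zpow_two, hzz, one_zpow, one_mul, zpow_one]
  · rintro (rfl | rfl)
    · exact Subgroup.one_mem _
    · exact Subgroup.mem_zpowers _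

/-- involutions of `G/⟨z⟩` lift to elements of order 4 -/
theorem lift_involution (h : HasQ8 G) {z : G} (hz : orderOf z = 2) (hzc : ∀ c, z * c = c * z)
    [(Subgroup.zpowers z).Normal] {q : G ⧸ Subgroup.zpowers z} (hq : orderOf q = 2) :
    ∃ g : G, orderOf g = 4 ∧ (g : G ⧸ Subgroup.zpowers z) = q := by
  obtain ⟨g, rfl⟩ := QuotientGroup.mk_surjective q
  have hzz : z * z = 1 := by rw [← pow_two, ← hz]; exact pow_orderOf_eq_one z
  have h1 : ((g * g : G) : G ⧸ Subgroup.zpowers z) = 1 := by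
    rw [QuotientGroup.mk_mul, ← pow_two, ← hq]; exact pow_orderOf_eq_one _
  have h2 : (g : G ⧸ Subgroup.zpowers z) ≠ 1 := by
    intro h3; rw [h3, orderOf_one] at hq; omega
  rw [QuotientGroup.eq_one_iff, mem_zpowers_iff_of_two hz] at h1
  rw [Ne, QuotientGroup.eq_one_iff, mem_zpowers_iff_of_two hz] at h2
  push Not at h2
  refine ⟨g, ?_, rfl⟩
  rcases h1 with h1 | h1
  · exfalso
    apply h2.2
    exact h.unique' (hzc g).symm (orderOf_eq_prime (by rw [pow_two]; exact h1) h2.1) hz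
  · apply orderOf_eq_prime_pow (p := 2) (n := 1)
    · rw [pow_one, pow_two, h1]
      intro h3
      rw [h3, orderOf_one] at hz; omega
    · show g ^ 2 ^ (1 + 1) = 1
      norm_num
      rw [show (4 : ℕ) = 2 * 2 from rfl, pow_mul, pow_two, pow_two, h1, hzz]

theorem klein_quot (S : Sylow 2 G) (e : (S : Subgroup G) ≃* QuaternionGroup 2) {z : G}
    (hz : orderOf z = 2) (hzc : ∀ c, z * c = c * z) [(Subgroup.zpowers z).Normal] :
    ∃ T : Sylow 2 (G ⧸ Subgroup.zpowers z), IsKleinFour (T : Subgroup (G ⧸ Subgroup.zpowers z)) := by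
  haveI : Fact (Nat.Prime 2) := ⟨Nat.prime_two⟩
  have h := hasQ8_of S ⟨e⟩
  have hsurj : Function.Surjective (QuotientGroup.mk' (Subgroup.zpowers z)) :=
    QuotientGroup.mk'_surjective _
  let T := Sylow.mapSurjective hsurj S
  have hcardS : Nat.card (S : Subgroup G) = 8 := by rw [Nat.card_congr e.toEquiv, q7]
  have hcardG : Nat.card G = 2 * Nat.card (G ⧸ Subgroup.zpowers z) := by
    rw [← Subgroup.index_eq_card, ← Subgroup.card_mul_index (Subgroup.zpowers z), Nat.card_zpowers,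
      hz]
  have hcardT : Nat.card (T : Subgroup (G ⧸ Subgroup.zpowers z)) = 4 := by
    have h1 := T.card_eq_multiplicity
    have h2 := S.card_eq_multiplicity
    rw [hcardS, hcardG, Nat.factorization_mul (by norm_num) Nat.card_pos.ne', Finsupp.add_apply,
      Nat.prime_two.factorization_self, pow_add, pow_one] at h2
    rw [h1]; omega
  have hexp : ∀ t : (T : Subgroup (G ⧸ Subgroup.zpowers z)), t ^ 2 = 1 := by
    rintro ⟨t, ht⟩
    obtain ⟨s, hs, rfl⟩ := ht
    apply Subtype.ext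
    show (QuotientGroup.mk' (Subgroup.zpowers z) s) ^ 2 = 1
    rw [← map_pow, QuotientGroup.mk'_apply, QuotientGroup.eq_one_iff, mem_zpowers_iff_of_two hz]
    have hs' : s ∈ (S : Subgroup G) := hs
    by_cases h1 : s ^ 2 = 1
    · left; exact h1
    · right
      have h4 : s ^ 4 = 1 := h.pow_four S.2 hs'
      have h5 : orderOf (s ^ 2) = 2 := orderOf_eq_prime (by rw [← pow_mul]; exact h4) h1
      exact h.unique' (hzc _).symm h5 hz
  refine ⟨T, ⟨hcardT, ?_⟩⟩
  have h1 : Monoid.exponent (T : Subgroup (G ⧸ Subgroup.zpowers z)) ∣ 2 :=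
    Monoid.exponent_dvd_of_forall_pow_eq_one hexp
  rcases (Nat.dvd_prime Nat.prime_two).1 h1 with h2 | h2
  · exfalso
    haveI := Monoid.exp_eq_one_iff.1 h2
    have := Nat.card_of_subsingleton (1 : (T : Subgroup (G ⧸ Subgroup.zpowers z)))
    omega
  · exact h2

/-- the members of the principal block with `z` in the kernel -/
theorem kplus (hM : IsPModular 2 M) (S : Sylow 2 G) (e : (S : Subgroup G) ≃* QuaternionGroup 2)
    (hc : Conj4 G) {z : G} (hz : orderOf z = 2) (hzc : ∀ c, z * c = c * z) {x : G}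
    (hx : orderOf x = 4) [DecidablePred fun χ : IrrCharacter G => (χ : G → ℂ) z = (χ : G → ℂ) 1] :
    ((Bf M G).filter (fun χ : IrrCharacter G => (χ : G → ℂ) z = (χ : G → ℂ) 1)).card = 4 ∧
    ∀ χ ∈ (Bf M G).filter (fun χ : IrrCharacter G => (χ : G → ℂ) z = (χ : G → ℂ) 1),
      (χ : G → ℂ) x = 1 ∨ (χ : G → ℂ) x = -1 := by
  classical
  haveI := pm_isPrime hM
  have h := hasQ8_of S ⟨e⟩
  haveI : (Subgroup.zpowers z).Normal := by
    refine ⟨fun n hn g => ?_⟩
    rw [mem_zpowers_iff_of_two hz] at hn ⊢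
    rcases hn with rfl | rfl
    · left; group
    · right; rw [← hzc, mul_inv_cancel_right]
  obtain ⟨T, hT⟩ := klein_quot S e hz hzc
  have hone : ∀ s t : G ⧸ Subgroup.zpowers z, orderOf s = 2 → orderOf t = 2 → IsConj s t := by
    intro s t hs ht
    obtain ⟨a, ha, rfl⟩ := lift_involution h hz hzc hs
    obtain ⟨b, hb, rfl⟩ := lift_involution h hz hzc ht
    obtain ⟨c, hc'⟩ := isConj_iff.1 (hc a b ha hb)
    exact isConj_iff.2 ⟨(c : G ⧸ Subgroup.zpowers z), by rw [← hc']; rfl⟩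
  obtain ⟨ζ₂, ζ₃, ζ₄, ε, hε, h21, h31, h23, h24, h34, hB, hval, -, -, -, -⟩ :=
    Klein.main hM T hT hone
  -- x̄ is an involution
  have hxbar : orderOf (x : G ⧸ Subgroup.zpowers z) = 2 := by
    have hx2 : x ^ 2 = z := by
      apply h.unique' (hzc _).symm _ hz
      rw [orderOf_pow_of_dvd (by norm_num) (by rw [hx]; norm_num), hx]
    apply orderOf_eq_prime
    · rw [← QuotientGroup.mk_pow, QuotientGroup.eq_one_iff, hx2]
      exact Subgroup.mem_zpowers z
    · rw [Ne, QuotientGroup.eq_one_iff, mem_zpowers_iff_of_two hz]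
      rintro (e1 | e1)
      · rw [e1, orderOf_one] at hx; omega
      · rw [e1, hz] at hx; omega
  obtain ⟨v2, v3, v4⟩ := hval _ hxbar
  have h41 : ζ₄ ≠ one _ := by
    intro e1
    rw [e1] at v4
    have : (one (G ⧸ Subgroup.zpowers z) : G ⧸ Subgroup.zpowers z → ℂ) (x : G ⧸ Subgroup.zpowers z) = 1 := rfl
    rw [this] at v4
    norm_num at v4
  have hcen : ∀ g : G, ¬ 2 ∣ orderOf g → g ∈ Subgroup.centralizer ((Subgroup.zpowers z : Subgroup G) : Set G) := by
    intro g _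
    rw [Subgroup.mem_centralizer_iff]
    intro y hy
    rcases (mem_zpowers_iff_of_two hz).1 hy with rfl | rfl
    · group
    · exact hzc g
  have hp : IsPGroup 2 (Subgroup.zpowers z) := isPGroup_zpowers ⟨1, by rw [hz, pow_one]⟩
  have hset : (Bf M G).filter (fun χ : IrrCharacter G => (χ : G → ℂ) z = (χ : G → ℂ) 1) =
      ({one _, ζ₂, ζ₃, ζ₄} : Finset (IrrCharacter (G ⧸ Subgroup.zpowers z))).image
        (infl (Subgroup.zpowers z)) := by
    have hinfl1 : infl (Subgroup.zpowers z) (one _) = one G := rfl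
    have hiff : ∀ θ : IrrCharacter (G ⧸ Subgroup.zpowers z),
        infl (Subgroup.zpowers z) θ ∈ principalBlock M G ↔
          θ ∈ ({one _, ζ₂, ζ₃, ζ₄} : Finset (IrrCharacter (G ⧸ Subgroup.zpowers z))) := by
      intro θ
      have e1 : infl (Subgroup.zpowers z) θ ∈ principalBlock M G ↔
          θ ∈ principalBlock M (G ⧸ Subgroup.zpowers z) := by
        show SameBlock M (infl (Subgroup.zpowers z) (one _) : G → ℂ)
          (infl (Subgroup.zpowers z) θ : G → ℂ) ↔ SameBlock M (one (G ⧸ Subgroup.zpowers z)).1 θ.1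
        exact (H20.PC.sameBlock_infl_iff _ hM hp hcen (one _) θ).symm
      rw [e1, hB]
      simp only [Set.mem_ofPred_eq, Finset.mem_insert, Finset.mem_singleton]
      have e2 : (θ : G ⧸ Subgroup.zpowers z → ℂ) = (fun _ => 1) ↔ θ = one _ :=
        ⟨fun hh => Subtype.ext hh, fun hh => by rw [hh]; rfl⟩
      rw [e2]
    ext χ
    rw [Finset.mem_filter, Finset.mem_image, mem_Bf]
    constructor
    · rintro ⟨hχ, hχz⟩
      obtain ⟨θ, hθ⟩ := exists_infl (Subgroup.zpowers z) (ψ := χ) (by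
        intro n hn
        rcases (mem_zpowers_iff_of_two hz).1 hn with rfl | rfl
        · rfl
        · exact hχz)
      refine ⟨θ, ?_, hθ⟩
      rw [← hiff, hθ]; exact hχ
    · rintro ⟨θ, hθ, rfl⟩
      exact ⟨(hiff θ).2 hθ, infl_trivial (Subgroup.zpowers z) θ z (Subgroup.mem_zpowers z)⟩
  have h21' : ζ₂ ≠ one _ := fun e1 => h21 (by rw [e1]; rfl)
  have h31' : ζ₃ ≠ one _ := fun e1 => h31 (by rw [e1]; rfl)
  constructor
  · rw [hset, Finset.card_image_of_injective _ (infl_injective _), Finset.card_insert_of_notMem,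
      Finset.card_insert_of_notMem, Finset.card_insert_of_notMem, Finset.card_singleton]
    · simp [h34]
    · simp [h23, h24]
    · simp [h21'.symm, h31'.symm, h41.symm]
  · intro χ hχ
    rw [hset, Finset.mem_image] at hχ
    obtain ⟨θ, hθ, rfl⟩ := hχ
    rw [infl_apply]
    simp only [Finset.mem_insert, Finset.mem_singleton] at hθ
    rcases hθ with rfl | rfl | rfl | rfl
    · left; rfl
    · left; exact v2
    · rw [v3]
      rcases hε with rfl | rfl
      · left; norm_num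
      · right; norm_num
    · right; exact v4

end quot

section final
variable {G : Type u} [Group G] [Finite G] {M : Ideal AlgInt}

/-- central involution -/
theorem exists_central (S : Sylow 2 G) (e : (S : Subgroup G) ≃* QuaternionGroup 2)
    (hO : ∀ N : Subgroup G, N.Normal → Odd (Nat.card N) → N = ⊥) :
    ∃ z : G, orderOf z = 2 ∧ ∀ c, z * c = c * z := by
  have h := hasQ8_of S ⟨e⟩
  haveI : Fact (Nat.Prime 2) := ⟨Nat.prime_two⟩
  obtain ⟨z, hzS, hz⟩ : ∃ z ∈ (S : Subgroup G), orderOf z = 2 := by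
    have hd : 2 ∣ Nat.card (S : Subgroup G) := by rw [Nat.card_congr e.toEquiv, q7]; norm_num
    obtain ⟨y, hy⟩ := exists_prime_orderOf_dvd_card' 2 hd
    exact ⟨y, y.2, by rw [Subgroup.orderOf_coe]; exact hy⟩
  refine ⟨z, hz, fun c => ?_⟩
  have hz2 : z ^ 2 = 1 := by rw [← hz]; exact pow_orderOf_eq_one z
  have hz1 : z ≠ 1 := by rintro rfl; rw [orderOf_one] at hz; omega
  have h1 := H5.ZStar.sylow_form S z hz (by
    intro g hg
    apply h.unique S.2 hg hzS
    · rw [conj_pow, hz2, mul_one, mul_inv_cancel]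
    · exact hz2
    · intro h3
      rw [mul_inv_eq_one, mul_eq_left] at h3
      exact hz1 h3
    · exact hz1) c
  have h2 : pPrimeCore 2 G = ⊥ := by
    have h1 := H1.Cores.pPrimeCore_characteristic (G := G) 2
    apply hO _ inferInstance
    exact Nat.coprime_two_right.1 (H1.Cores.coprime_card_pPrimeCore (G := G) 2)
  rw [h2, Subgroup.mem_bot] at h1
  have h3 : z * c * (c * z)⁻¹ = 1 := by rw [mul_inv_rev, ← mul_assoc]; exact h1
  exact mul_inv_eq_one.1 h3

/-- S0951 -/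
theorem main (hM : IsPModular 2 M) (S : Sylow 2 G) (e : (S : Subgroup G) ≃* QuaternionGroup 2)
    (hO : ∀ N : Subgroup G, N.Normal → Odd (Nat.card N) → N = ⊥) (hG : (S : Subgroup G) ≠ ⊤) :
    Nat.card (principalBlock M G) = 7 := by
  classical
  haveI := pm_isPrime hM
  haveI : Fact (Nat.Prime 2) := ⟨Nat.prime_two⟩
  letI := Fintype.ofFinite G
  have h := hasQ8_of S ⟨e⟩
  obtain ⟨z, hz, hzc⟩ := exists_central S e hO
  have hc : Conj4 G := by
    rcases H5.Q8T1.fusion S ⟨e⟩ with h1 | h1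
    · exfalso
      have h2 := H2.NPC.isComplement'_residual_of_hasNPC h1 S
      have h3 : Nat.card (pResidual 2 G) = (S : Subgroup G).index := h2.index_eq_card.symm
      have h4 : Odd (Nat.card (pResidual 2 G)) := by
        rw [h3, ← Nat.not_even_iff_odd, even_iff_two_dvd]
        exact S.not_dvd_index
      have h5 := hO _ inferInstance h4
      rw [h5] at h2
      exact hG (Subgroup.isComplement'_bot_left.1 h2)
    · exact h1
  obtain ⟨x, hx⟩ := h.exists_four
  obtain ⟨hcard, hval⟩ := kplus (M := M) hM S e hc hz hzc hx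
  set Kp := (Bf M G).filter (fun χ : IrrCharacter G => (χ : G → ℂ) z = (χ : G → ℂ) 1) with hKp
  set Km := (Bf M G).filter (fun χ : IrrCharacter G => ¬ (χ : G → ℂ) z = (χ : G → ℂ) 1) with hKm
  have hsumsplit : ∀ f : IrrCharacter G → ℂ, ∑ χ ∈ Bf M G, f χ = ∑ χ ∈ Kp, f χ + ∑ χ ∈ Km, f χ :=
    fun f => (Finset.sum_filter_add_sum_filter_not (Bf M G) _ f).symm
  -- action of z
  have hzz : z * z = 1 := H62.Q8Flat.z_sq hz
  have hact : ∀ χ : IrrCharacter G, ∃ a : ℂ, (a = 1 ∨ a = -1) ∧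
      ∀ g, (χ : G → ℂ) (z * g) = a * (χ : G → ℂ) g := by
    intro χ
    obtain ⟨a, ha0, ha, hpow⟩ := H81.CentralVal.exists_central χ.2 (z := z)
      (Subgroup.mem_center_iff.2 fun g => (hzc g).symm)
    have h2 := hpow 2 (by rw [pow_two]; exact hzz)
    refine ⟨a, ?_, ha⟩
    exact mul_self_eq_one_iff.1 (by rw [← pow_two]; exact h2)
  have hp1 : ∀ χ ∈ Kp, ∀ g, (χ : G → ℂ) (z * g) = 1 * (χ : G → ℂ) g := by
    intro χ hχ
    obtain ⟨a, ha, hag⟩ := hact χ
    have h1 := hag 1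
    rw [mul_one, (Finset.mem_filter.1 hχ).2] at h1
    have h2 := H18.CharBasic.irr_one_ne_zero χ.2
    have h3 : a = 1 := by
      apply mul_right_cancel₀ h2; rw [one_mul]; exact h1.symm
    rw [← h3]; exact hag
  have hm1 : ∀ χ ∈ Km, ∀ g, (χ : G → ℂ) (z * g) = (-1) * (χ : G → ℂ) g := by
    intro χ hχ
    obtain ⟨a, ha, hag⟩ := hact χ
    rcases ha with rfl | rfl
    · exfalso
      apply (Finset.mem_filter.1 hχ).2
      have h1 := hag 1
      rwa [mul_one, one_mul] at h1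
    · exact hag
  have hKpB : ∀ χ ∈ Kp, χ ∈ Bf M G := fun χ hχ => (Finset.mem_filter.1 hχ).1
  have hKmB : ∀ χ ∈ Km, χ ∈ Bf M G := fun χ hχ => (Finset.mem_filter.1 hχ).1
  have hvp : ∀ χ ∈ Kp, (χ : G → ℂ) x * conj ((χ : G → ℂ) x) = 1 := by
    intro χ hχ
    rcases hval χ hχ with e1 | e1 <;> rw [e1] <;> simp
  -- vanishing on Km
  have hvm : ∀ χ ∈ Km, (χ : G → ℂ) x = 0 := by
    have h1 := sum_four hM h hx
    rw [hsumsplit, Finset.sum_congr rfl hvp, Finset.sum_const, hcard] at h1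
    have h2 : ∑ χ ∈ Km, (χ : G → ℂ) x * conj ((χ : G → ℂ) x) = 0 := by
      have h3 : (4 : ℕ) • (1 : ℂ) = 4 := by simp
      rw [h3] at h1
      linear_combination h1
    have h4 : ∑ χ ∈ Km, ‖(χ : G → ℂ) x‖ ^ 2 = 0 := by
      have h5 : ((∑ χ ∈ Km, ‖(χ : G → ℂ) x‖ ^ 2 : ℝ) : ℂ) = 0 := by
        rw [Complex.ofReal_sum, ← h2]
        refine Finset.sum_congr rfl fun χ _ => ?_
        rw [Complex.mul_conj', Complex.ofReal_pow]
      exact_mod_cast h5
    rw [Finset.sum_eq_zero_iff_of_nonneg (fun _ _ => by positivity)] at h4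
    intro χ hχ
    have := h4 χ hχ
    simpa using this
  -- values of r
  have hrm : ∀ χ ∈ Km, ∀ ψ ∈ Km, r χ ψ = if χ = ψ then 1 / 2 else 0 := by
    intro χ hχ ψ hψ
    have h1 := inner_decomp hM h hc hz hzc hx (hKmB χ hχ) (hKmB ψ hψ) (hm1 χ hχ) (hm1 ψ hψ)
    rw [hvm χ hχ, zero_mul, zero_div, add_zero, map_neg, map_one] at h1
    split_ifs with h2
    · rw [← h2, H18.CharOrtho.inner_irr_self χ.2] at h1
      rw [← h2]
      linear_combination (-1/2 : ℂ) * h1
    · rw [H18.CharOrtho.inner_irr_ne χ.2 ψ.2 (fun h' => h2 (Subtype.ext h'))] at h1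
      linear_combination (-1/2 : ℂ) * h1
  have hrp : ∀ χ ∈ Kp, ∀ ψ ∈ Kp, r χ ψ * r ψ χ = if χ = ψ then 9 / 64 else 1 / 64 := by
    intro χ hχ ψ hψ
    have h1 := inner_decomp hM h hc hz hzc hx (hKpB χ hχ) (hKpB ψ hψ) (hp1 χ hχ) (hp1 ψ hψ)
    have h1' := inner_decomp hM h hc hz hzc hx (hKpB ψ hψ) (hKpB χ hχ) (hp1 ψ hψ) (hp1 χ hχ)
    rw [map_one] at h1 h1'
    split_ifs with h2
    · rw [← h2, H18.CharOrtho.inner_irr_self χ.2, hvp χ hχ] at h1
      have h3 : r χ χ = 3 / 8 := by linear_combination (-1/2 : ℂ) * h1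
      rw [← h2, h3]; norm_num
    · rw [H18.CharOrtho.inner_irr_ne χ.2 ψ.2 (fun h' => h2 (Subtype.ext h'))] at h1
      rw [H18.CharOrtho.inner_irr_ne ψ.2 χ.2 (fun h' => h2 (Subtype.ext h'.symm))] at h1'
      have h3 : r χ ψ = - ((χ : G → ℂ) x * conj ((ψ : G → ℂ) x)) / 8 := by
        linear_combination (-1/2 : ℂ) * h1
      have h4 : r ψ χ = - ((ψ : G → ℂ) x * conj ((χ : G → ℂ) x)) / 8 := by
        linear_combination (-1/2 : ℂ) * h1'
      rw [h3, h4]
      have e1 := hvp χ hχ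
      have e2 := hvp ψ hψ
      calc -((χ : G → ℂ) x * conj ((ψ : G → ℂ) x)) / 8 * (-((ψ : G → ℂ) x * conj ((χ : G → ℂ) x)) / 8)
          = ((χ : G → ℂ) x * conj ((χ : G → ℂ) x)) * ((ψ : G → ℂ) x * conj ((ψ : G → ℂ) x)) / 64 := by
            ring
        _ = 1 / 64 := by rw [e1, e2]; norm_num
  have hrpp : ∀ χ ∈ Kp, r χ χ = 3 / 8 := by
    intro χ hχ
    have h1 := inner_decomp hM h hc hz hzc hx (hKpB χ hχ) (hKpB χ hχ) (hp1 χ hχ) (hp1 χ hχ)
    rw [map_one, H18.CharOrtho.inner_irr_self χ.2, hvp χ hχ] at h1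
    linear_combination (-1/2 : ℂ) * h1
  -- row sums
  have hrow1 : ∀ χ ∈ Km, ∑ ψ ∈ Kp, r χ ψ * r ψ χ = 1 / 4 := by
    intro χ hχ
    have h1 := r_sum hM (hKmB χ hχ)
    rw [hsumsplit] at h1
    have h2 : ∑ ψ ∈ Km, r χ ψ * r ψ χ = 1 / 4 := by
      rw [Finset.sum_eq_single χ]
      · rw [hrm χ hχ χ hχ, if_pos rfl]; norm_num
      · intro ψ hψ hne
        rw [hrm χ hχ ψ hψ, if_neg hne.symm, zero_mul]
      · intro hn; exact absurd hχ hn
    rw [h2, hrm χ hχ χ hχ, if_pos rfl] at h1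
    linear_combination h1
  have hrow2 : ∀ ψ ∈ Kp, ∑ χ ∈ Km, r ψ χ * r χ ψ = 3 / 16 := by
    intro ψ hψ
    have h1 := r_sum hM (hKpB ψ hψ)
    rw [hsumsplit] at h1
    have h2 : ∑ χ ∈ Kp, r ψ χ * r χ ψ = 3 / 16 := by
      rw [← Finset.add_sum_erase Kp _ hψ, hrp ψ hψ ψ hψ, if_pos rfl]
      have h3 : ∀ χ ∈ Kp.erase ψ, r ψ χ * r χ ψ = 1 / 64 := by
        intro χ hχ
        rw [hrp ψ hψ χ (Finset.mem_of_mem_erase hχ), if_neg (Finset.ne_of_mem_erase hχ).symm]
      rw [Finset.sum_congr rfl h3, Finset.sum_const, Finset.card_erase_of_mem hψ, hcard]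
      norm_num
    rw [h2, hrpp ψ hψ] at h1
    linear_combination h1
  have hfinal : (Km.card : ℂ) * (1 / 4) = 3 / 4 := by
    have h1 : ∑ χ ∈ Km, ∑ ψ ∈ Kp, r χ ψ * r ψ χ = (Km.card : ℂ) * (1 / 4) := by
      rw [Finset.sum_congr rfl hrow1, Finset.sum_const, nsmul_eq_mul]
    have h2 : ∑ ψ ∈ Kp, ∑ χ ∈ Km, r ψ χ * r χ ψ = 3 / 4 := by
      rw [Finset.sum_congr rfl hrow2, Finset.sum_const, nsmul_eq_mul, hcard]
      norm_num
    rw [← h1, ← h2, Finset.sum_comm]
    refine Finset.sum_congr rfl fun ψ _ => Finset.sum_congr rfl fun χ _ => ?_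
    rw [mul_comm]
  have hKm3 : Km.card = 3 := by
    have h1 : (Km.card : ℂ) = 3 := by linear_combination 4 * hfinal
    exact_mod_cast h1
  have htot : (Bf M G).card = 7 := by
    rw [← Finset.card_filter_add_card_filter_not (s := Bf M G)
      (fun χ : IrrCharacter G => (χ : G → ℂ) z = (χ : G → ℂ) 1)]
    rw [← hKp, ← hKm, hcard, hKm3]
  rw [← htot, Nat.card_coe_set_eq, Set.ncard_eq_toFinset_card _ (Set.toFinite _)]
  rfl

end final

end H20.Q8Seven
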